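import Mathlib
import Cfsg.Agent.H37.NormalMT

/-!
Burnside's theorem on minimal normal subgroups of 2-transitive groups.
-/

set_option autoImplicit false

namespace Cfsg.Agent.H37

open MulAction SubMulAction
open scoped Pointwise

universe u v

section

variable {G : Type u} [Group G] {X : Type v} [MulAction G X]

/-- if every prime dividing the order of a point stabilizer in a normal subgroup of a 2-transitive group
divides the degree, then the stabilizer is trivial -/
lemma stab_trivial [Finite X] [FaithfulSMul G X] (h2 : IsMultiplyPretransitive G X 2) (N : Subgroup G)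
    [hN : N.Normal] (a : X)
    (hdiv : ∀ p : ℕ, p.Prime → p ∣ Nat.card (N ⊓ stabilizer G a : Subgroup G) → p ∣ Nat.card X) :
    N ⊓ stabilizer G a = ⊥ := by
  classical
  have hfin : Finite G := finite_of_faithful (X := X)
  set S : Subgroup G := N ⊓ stabilizer G a with hS
  have hpos : 0 < Nat.card X := Finite.card_pos_iff.2 ⟨a⟩
  have hcardY : Nat.card {x : X // x ≠ a} = Nat.card X - 1 := by
    have := Fintype.ofFinite X
    rw [Nat.card_eq_fintype_card, Nat.card_eq_fintype_card, Fintype.card_subtype_compl,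
      Fintype.card_subtype_eq]
  -- conjugate point stabilizers
  have hconj : ∀ b c : X, b ≠ a → c ≠ a →
      Nat.card (S ⊓ stabilizer G b : Subgroup G) ∣ Nat.card (S ⊓ stabilizer G c : Subgroup G) := by
    intro b c hb hc
    obtain ⟨g, hg1, hg2⟩ := (is_two_pretransitive_iff.1 h2) hb.symm hc.symm
    have hle : (S ⊓ stabilizer G b : Subgroup G).map (MulAut.conj g).toMonoidHom ≤
        (S ⊓ stabilizer G c : Subgroup G) := by
      rintro _ ⟨x, ⟨⟨hx1, hx2⟩, hx3⟩, rfl⟩
      have hga : g⁻¹ • a = a := by rw [inv_smul_eq_iff, hg1]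
      have hgc : g⁻¹ • c = b := by rw [inv_smul_eq_iff, hg2]
      refine ⟨⟨hN.conj_mem x hx1 g, ?_⟩, ?_⟩
      · change (g * x * g⁻¹) • a = a
        rw [mul_smul, hga, mul_smul, mem_stabilizer_iff.1 hx2, hg1]
      · change (g * x * g⁻¹) • c = c
        rw [mul_smul, hgc, mul_smul, mem_stabilizer_iff.1 hx3, hg2]
    have hc1 : Nat.card ((S ⊓ stabilizer G b : Subgroup G).map (MulAut.conj g).toMonoidHom) =
        Nat.card (S ⊓ stabilizer G b : Subgroup G) :=
      Subgroup.card_map_of_injective (MulAut.conj g).injective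
    rw [← hc1]
    exact Subgroup.card_dvd_of_le hle
  have hall : ∀ b : X, b ≠ a → S ≤ stabilizer G b := by
    intro b hb
    have hdvd : Nat.card S ∣ Nat.card (S ⊓ stabilizer G b : Subgroup G) := by
      rw [← Nat.factorization_le_iff_dvd Nat.card_pos.ne' Nat.card_pos.ne']
      intro p
      by_cases hp : p.Prime
      swap
      · rw [Nat.factorization_eq_zero_of_not_prime _ hp]; exact Nat.zero_le _
      by_cases hpS : p ∣ Nat.card S
      swap
      · rw [Nat.factorization_eq_zero_of_not_dvd hpS]; exact Nat.zero_le _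
      have hpX := hdiv p hp hpS
      have : Fact p.Prime := ⟨hp⟩
      obtain ⟨P⟩ : Nonempty (Sylow p S) := inferInstance
      let act : MulAction (P : Subgroup S) {x : X // x ≠ a} :=
        { smul := fun t x => ⟨((t : S) : G) • (x : X), fun h => x.2 (by
            have h1 : ((t : S) : G) • a = a := (t : S).2.2
            exact MulAction.injective ((t : S) : G) (h.trans h1.symm))⟩
          one_smul := fun x => Subtype.ext (one_smul G (x : X))
          mul_smul := fun s t x => Subtype.ext (mul_smul ((s : S) : G) ((t : S) : G) (x : X)) }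
      have hnd : ¬ p ∣ Nat.card {x : X // x ≠ a} := by
        rw [hcardY]
        intro h
        have h1 : p ∣ 1 := by
          have := Nat.dvd_sub hpX h
          rwa [show Nat.card X - (Nat.card X - 1) = 1 by omega] at this
        exact hp.one_lt.ne' (Nat.dvd_one.1 h1)
      obtain ⟨c, hc⟩ := P.2.nonempty_fixed_point_of_prime_not_dvd_card {x : X // x ≠ a} hnd
      have hle : (P : Subgroup S).map S.subtype ≤ S ⊓ stabilizer G c.1 := by
        rintro _ ⟨x, hx, rfl⟩
        exact ⟨x.2, congrArg Subtype.val (hc ⟨x, hx⟩)⟩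
      have h1 : p ^ (Nat.card S).factorization p ∣ Nat.card (S ⊓ stabilizer G c.1 : Subgroup G) := by
        rw [← P.card_eq_multiplicity]
        change Nat.card (P : Subgroup S) ∣ _
        have hc1 : Nat.card ((P : Subgroup S).map S.subtype) = Nat.card (P : Subgroup S) :=
          Subgroup.card_map_of_injective S.subtype_injective
        rw [← hc1]
        exact Subgroup.card_dvd_of_le hle
      exact (hp.pow_dvd_iff_le_factorization Nat.card_pos.ne').1 (h1.trans (hconj c.1 b c.2 hb))
    have heq : (S ⊓ stabilizer G b : Subgroup G) = S :=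
      Subgroup.eq_of_le_of_card_ge inf_le_left (Nat.le_of_dvd Nat.card_pos hdvd)
    rw [← heq]
    exact inf_le_right
  rw [Subgroup.eq_bot_iff_forall]
  intro x hx
  apply FaithfulSMul.eq_of_smul_eq_smul (α := X)
  intro b
  rw [one_smul]
  by_cases hb : b = a
  · rw [hb]; exact hx.2
  · exact hall b hb hx

/-- translates of blocks of a normal subgroup are blocks -/
lemma block_translate {N : Subgroup G} [hN : N.Normal] {B : Set X} (hB : IsBlock N B) (g : G) :
    IsBlock N (g • B) := by
  rw [isBlock_iff_smul_eq_of_mem] at hB ⊢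
  intro n x hx hnx
  obtain ⟨y, hy, rfl⟩ := hx
  have h1 : (g⁻¹ * (n : G) * g) ∈ N := by
    have := hN.conj_mem (n : G) n.2 g⁻¹; rwa [inv_inv] at this
  have h2 := hB (g := ⟨g⁻¹ * (n : G) * g, h1⟩) hy (by
    obtain ⟨z, hz, hzn⟩ := hnx
    have h3 : g • z = (n : G) • g • y := hzn
    have h4 : (g⁻¹ * (n : G) * g) • y = z := by
      rw [mul_smul, mul_smul, ← h3, inv_smul_smul]
    change (g⁻¹ * (n : G) * g) • y ∈ B
    rw [h4]; exact hz)
  have h3 : (g⁻¹ * (n : G) * g) • B = B := h2
  change (n : G) • g • B = g • B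
  have h4 : (g⁻¹ * (n : G) * g) • B = g⁻¹ • (n : G) • g • B := by
    rw [mul_smul, mul_smul]
  rw [h4, inv_smul_eq_iff] at h3
  exact h3

/-- a normal nonregular minimal normal subgroup of a 2-transitive group is primitive -/
lemma primitive_of_nonregular [Finite X] [FaithfulSMul G X] (hX : 2 ≤ Nat.card X)
    (h2 : IsMultiplyPretransitive G X 2)
    (N : Subgroup G) [hN : N.Normal] (htr : IsPretransitive N X)
    (hmin : ∀ M : Subgroup G, M.Normal → M ≤ N → M = ⊥ ∨ M = N)
    (hnr : ¬ ∀ a : X, stabilizer N a = ⊥) : IsPreprimitive N X := by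
  classical
  by_contra hprim
  obtain ⟨B₀, hB₀, hB₀s, hB₀u⟩ : ∃ B : Set X, IsBlock N B ∧ ¬ B.Subsingleton ∧ B ≠ Set.univ := by
    by_contra h
    push Not at h
    apply hprim
    apply IsPreprimitive.mk
    intro B hB
    by_cases hs : B.Subsingleton
    · exact Or.inl hs
    · exact Or.inr (h B hB (Set.not_subsingleton_iff.1 hs))
  let S : Set (Set X) := {B | IsBlock N B ∧ ¬ B.Subsingleton}
  obtain ⟨B, hBS, hBmin⟩ := Set.exists_min_image S Set.ncard (Set.toFinite S) ⟨B₀, hB₀, hB₀s⟩
  have hBu : B.ncard < Nat.card X := by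
    refine lt_of_le_of_lt (hBmin B₀ ⟨hB₀, hB₀s⟩) ?_
    rw [← Set.ncard_univ]
    exact Set.ncard_lt_ncard (Set.ssubset_univ_iff.2 hB₀u)
  -- lines
  have hline : ∀ a b : X, a ≠ b → ∃ L : Set X, IsBlock N L ∧ L.ncard = B.ncard ∧ a ∈ L ∧ b ∈ L := by
    intro a b hab
    have hBs := hBS.2
    rw [Set.not_subsingleton_iff] at hBs
    obtain ⟨x, hx, y, hy, hxy⟩ := hBs
    obtain ⟨g, hg1, hg2⟩ := (is_two_pretransitive_iff.1 h2) hxy hab
    refine ⟨g • B, block_translate hBS.1 g, ?_, ⟨x, hx, hg1⟩, ⟨y, hy, hg2⟩⟩
    rw [← Set.image_smul]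
    exact Set.ncard_image_of_injective B (MulAction.injective g)
  choose! L hLb hLc hLa hLb' using hline
  have huniq : ∀ L L' : Set X, IsBlock N L → IsBlock N L' → L.ncard = B.ncard → L'.ncard = B.ncard →
      ∀ x y, x ≠ y → x ∈ L → y ∈ L → x ∈ L' → y ∈ L' → L = L' := by
    intro L L' hL hL' hc hc' x y hxy hx hy hx' hy'
    have h1 : (L ∩ L') ∈ S := ⟨hL.inter hL', fun h => hxy (h ⟨hx, hx'⟩ ⟨hy, hy'⟩)⟩
    have h2 := hBmin _ h1
    have h3 : L ∩ L' = L := Set.eq_of_subset_of_ncard_le Set.inter_subset_left (by rw [hc]; exact h2)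
    have h4 : L ∩ L' = L' := Set.eq_of_subset_of_ncard_le Set.inter_subset_right (by rw [hc']; exact h2)
    rw [← h3, h4]
  have hout : ∀ a b : X, a ≠ b → ∃ c, c ∉ L a b := by
    intro a b hab
    by_contra h
    push Not at h
    have : L a b = Set.univ := Set.eq_univ_of_forall h
    have h1 := hLc a b hab
    rw [this, Set.ncard_univ] at h1
    omega
  have hfix1 : ∀ n ∈ N, ∀ a b c : X, a ≠ b → n • a = a → n • b = b → c ∉ L a b → n • c = c := by
    intro n hn a b c hab ha hb hc
    have hac : a ≠ c := by rintro rfl; exact hc (hLa a b hab)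
    have hbc : b ≠ c := by rintro rfl; exact hc (hLb' a b hab)
    by_contra hne
    have h1 : n • L a c = L a c :=
      (isBlock_iff_smul_eq_of_mem.1 (hLb a c hac)) (g := ⟨n, hn⟩) (hLa a c hac) (by
        change n • a ∈ _
        rw [ha]; exact hLa a c hac)
    have h2 : n • L b c = L b c :=
      (isBlock_iff_smul_eq_of_mem.1 (hLb b c hbc)) (g := ⟨n, hn⟩) (hLa b c hbc) (by
        change n • b ∈ _
        rw [hb]; exact hLa b c hbc)
    have h3 : n • c ∈ L a c := by
      rw [← h1]; exact Set.smul_mem_smul_set (hLb' a c hac)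
    have h4 : n • c ∈ L b c := by
      rw [← h2]; exact Set.smul_mem_smul_set (hLb' b c hbc)
    have h5 : L a c = L b c := huniq _ _ (hLb a c hac) (hLb b c hbc) (hLc a c hac) (hLc b c hbc) c (n • c)
      (Ne.symm hne) (hLb' a c hac) h3 (hLb' b c hbc) h4
    have h6 : L a c = L a b := huniq _ _ (hLb a c hac) (hLb a b hab) (hLc a c hac) (hLc a b hab) a b hab
      (hLa a c hac) (by rw [h5]; exact hLa b c hbc) (hLa a b hab) (hLb' a b hab)
    exact hc (by rw [← h6]; exact hLb' a c hac)
  have hfrob : ∀ n ∈ N, ∀ a b : X, a ≠ b → n • a = a → n • b = b → n = 1 := by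
    intro n hn a b hab ha hb
    obtain ⟨c, hc⟩ := hout a b hab
    have hac : a ≠ c := by rintro rfl; exact hc (hLa a b hab)
    have hnc := hfix1 n hn a b c hab ha hb hc
    apply FaithfulSMul.eq_of_smul_eq_smul (α := X)
    intro d
    rw [one_smul]
    by_cases hd : d ∈ L a b
    · by_cases hda : d = a
      · rw [hda]; exact ha
      · apply hfix1 n hn a c d hac ha hnc
        intro hd'
        have : L a c = L a b := huniq _ _ (hLb a c hac) (hLb a b hab) (hLc a c hac) (hLc a b hab) a d
          (Ne.symm hda) (hLa a c hac) hd' (hLa a b hab) hd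
        exact hc (by rw [← this]; exact hLb' a c hac)
    · exact hfix1 n hn a b d hab ha hb hd
  obtain ⟨K, hKn, hKN, hKtr, hKreg⟩ := exists_regular_normal hX h2 N htr hfrob
  rcases hmin K hKn hKN with h | h
  · have : 1 < Nat.card X := by omega
    rw [Finite.one_lt_card_iff_nontrivial] at this
    obtain ⟨x, y, hxy⟩ := this
    obtain ⟨⟨k, hk⟩, hkx⟩ := exists_smul_eq K x y
    rw [h, Subgroup.mem_bot] at hk
    subst hk
    exact hxy ((one_smul G x).symm.trans hkx)
  · subst h
    exact hnr hKreg

lemma card_stab_mul [Finite X] (N : Subgroup G) (htr : IsPretransitive N X) (a : X) :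
    Nat.card (N ⊓ stabilizer G a : Subgroup G) * Nat.card X = Nat.card N := by
  have h1 := MulAction.index_stabilizer_of_transitive N a
  rw [← h1, ← Subgroup.card_mul_index (stabilizer N a)]
  congr 1
  apply Nat.card_congr
  exact ⟨fun x => ⟨⟨x.1, x.2.1⟩, x.2.2⟩, fun x => ⟨x.1.1, x.1.2, x.2⟩, fun _ => rfl, fun _ => rfl⟩

theorem burnside_two_trans [Finite X] [FaithfulSMul G X] (hX : 2 ≤ Nat.card X)
    (h2 : IsMultiplyPretransitive G X 2)
    (N : Subgroup G) [hN : N.Normal] (hNb : N ≠ ⊥)
    (hmin : ∀ M : Subgroup G, M.Normal → M ≤ N → M = ⊥ ∨ M = N) :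
    (IsMulCommutative N ∧ (∃ p : ℕ, p.Prime ∧ ∀ n ∈ N, n ^ p = 1) ∧ ∀ a : X, stabilizer N a = ⊥) ∨
      (IsSimpleGroup N ∧ IsPreprimitive N X) := by
  classical
  have hfin : Finite G := finite_of_faithful (X := X)
  have hprimG : IsPreprimitive G X := isPreprimitive_of_is_two_pretransitive h2
  have htr : IsPretransitive N X := normal_isPretransitive N hNb
  have hne : Nonempty X := by
    rw [← Finite.card_pos_iff]; omega
  by_cases hreg : ∀ a : X, stabilizer N a = ⊥
  · left
    -- all nonidentity elements are conjugate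
    obtain ⟨a⟩ := hne
    have hfpf : ∀ n ∈ N, n ≠ 1 → n • a ≠ a := by
      intro n hn hn1 h
      apply hn1
      have : (⟨n, hn⟩ : N) ∈ stabilizer N a := h
      rw [hreg a, Subgroup.mem_bot] at this
      exact congrArg Subtype.val this
    have hconj : ∀ n ∈ N, ∀ m ∈ N, n ≠ 1 → m ≠ 1 → ∃ g : G, g * n * g⁻¹ = m := by
      intro n hn m hm hn1 hm1
      obtain ⟨g, hg1, hg2⟩ := (is_two_pretransitive_iff.1 h2) (hfpf n hn hn1).symm (hfpf m hm hm1).symm
      refine ⟨g, ?_⟩
      apply reg_inj hreg (hN.conj_mem n hn g) hm (x := a)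
      rw [← conj_smul_base hg1, hg2]
    -- prime order
    have hcard : 1 < Nat.card N := by
      rw [Finite.one_lt_card_iff_nontrivial]
      exact (Subgroup.nontrivial_iff_ne_bot N).2 hNb
    obtain ⟨p, hp, hpN⟩ := Nat.exists_prime_and_dvd (n := Nat.card N) (by omega)
    have : Fact p.Prime := ⟨hp⟩
    obtain ⟨z, hz⟩ := exists_prime_orderOf_dvd_card' p hpN
    have hz1 : (z : G) ≠ 1 := by
      intro h
      have : z = 1 := Subtype.ext h
      rw [this, orderOf_one] at hz; exact hp.one_lt.ne hz
    have hexp : ∀ n ∈ N, n ^ p = 1 := by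
      intro n hn
      by_cases hn1 : n = 1
      · rw [hn1, one_pow]
      · obtain ⟨g, hg⟩ := hconj z z.2 n hn hz1 hn1
        rw [← hg, conj_pow]
        have : (z : G) ^ p = 1 := by
          have := pow_orderOf_eq_one z
          rw [hz] at this
          exact congrArg Subtype.val this
        rw [this]; group
    have hpg : IsPGroup p N := by
      intro x
      exact ⟨1, by rw [pow_one]; exact Subtype.ext (hexp x x.2)⟩
    have hnt : Nontrivial N := (Subgroup.nontrivial_iff_ne_bot N).2 hNb
    have hcen := hpg.center_nontrivial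
    have hcm : IsMulCommutative N := by
      rcases hmin ((Subgroup.center N).map N.subtype) inferInstance (Subgroup.map_subtype_le _) with h | h
      · exfalso
        rw [Subgroup.map_eq_bot_iff_of_injective _ N.subtype_injective] at h
        exact (Subgroup.nontrivial_iff_ne_bot _).1 hcen h
      · refine ⟨⟨fun x y => ?_⟩⟩
        have hx : (x : G) ∈ (Subgroup.center N).map N.subtype := by rw [h]; exact x.2
        obtain ⟨x', hx', hxx⟩ := hx
        have : x' = x := Subtype.ext hxx
        subst this
        exact ((Subgroup.mem_center_iff.1 hx') y).symm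
    exact ⟨hcm, ⟨p, hp, hexp⟩, hreg⟩
  · right
    have hprim : IsPreprimitive N X := primitive_of_nonregular hX h2 N htr hmin hreg
    refine ⟨?_, hprim⟩
    have hnt : Nontrivial N := (Subgroup.nontrivial_iff_ne_bot N).2 hNb
    refine ⟨?_⟩
    by_contra hcon
    push Not at hcon
    obtain ⟨T₀, hT₀n, hT₀b, hT₀t⟩ := hcon
    -- a minimal normal subgroup of N
    let S : Set (Subgroup N) := {T | T.Normal ∧ T ≠ ⊥}
    obtain ⟨T, hT, hTmin'⟩ : ∃ T ∈ S, ∀ T' ∈ S, T' ≤ T → T' = T ∧ T ≠ ⊤ := by
      let S' : Set (Subgroup N) := {T | T.Normal ∧ T ≠ ⊥ ∧ T ≤ T₀}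
      obtain ⟨T, hT⟩ := (Set.toFinite S').exists_minimal ⟨T₀, hT₀n, hT₀b, le_rfl⟩
      refine ⟨T, ⟨hT.1.1, hT.1.2.1⟩, fun T' hT' hle => ⟨?_, ?_⟩⟩
      · exact le_antisymm hle (hT.2 ⟨hT'.1, hT'.2, hle.trans hT.1.2.2⟩ hle)
      · rintro rfl
        exact hT₀t (eq_top_iff.2 hT.1.2.2)
    have hTn : T.Normal := hT.1
    have hTtop : T ≠ ⊤ := (hTmin' T hT le_rfl).2
    have hTmin : ∀ M : Subgroup N, M.Normal → M ≤ T → M = ⊥ ∨ M = T := by
      intro M hM hle
      by_cases h : M = ⊥
      · exact Or.inl h
      · exact Or.inr (hTmin' M ⟨hM, h⟩ hle).1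
    -- conjugates
    let cT : G → Subgroup N := fun g => T.map (MulAut.conjNormal g : MulAut N).toMonoidHom
    have hcTn : ∀ g, (cT g).Normal := fun g => hTn.map _ (MulAut.conjNormal g : MulAut N).surjective
    have hcTcard : ∀ g, Nat.card (cT g) = Nat.card T := fun g =>
      Subgroup.card_map_of_injective (f := (MulAut.conjNormal g : MulAut N).toMonoidHom)
        (MulAut.conjNormal g : MulAut N).injective
    have hcTb : ∀ g, cT g ≠ ⊥ := by
      intro g h
      exact hT.2 ((Subgroup.map_eq_bot_iff_of_injective _ (MulAut.conjNormal g : MulAut N).injective).1 h)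
    have hcTmem : ∀ g (x : N), x ∈ cT g ↔ ∃ t ∈ T, g * (t : G) * g⁻¹ = x := by
      intro g x
      constructor
      · rintro ⟨t, ht, rfl⟩
        exact ⟨t, ht, (MulAut.conjNormal_apply g t).symm⟩
      · rintro ⟨t, ht, h⟩
        exact ⟨t, ht, Subtype.ext ((MulAut.conjNormal_apply g t).trans h)⟩
    have hdich : ∀ g, cT g = T ∨ T ⊓ cT g = ⊥ := by
      intro g
      have hcTng := hcTn g
      rcases hTmin (T ⊓ cT g) inferInstance inf_le_left with h | h
      · exact Or.inr h
      · left
        have : T ≤ cT g := by rw [← h]; exact inf_le_right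
        exact (Subgroup.eq_of_le_of_card_ge this (by rw [hcTcard])).symm
    have hexg : ∃ g, cT g ≠ T := by
      by_contra hall
      push Not at hall
      have hTG : (T.map N.subtype).Normal := by
        refine ⟨?_⟩
        rintro _ ⟨t, ht, rfl⟩ g
        have h1 : (MulAut.conjNormal g : MulAut N) t ∈ T := by
          have : (MulAut.conjNormal g : MulAut N) t ∈ cT g := ⟨t, ht, rfl⟩
          rwa [hall g] at this
        exact ⟨_, h1, MulAut.conjNormal_apply g t⟩
      rcases hmin _ hTG (Subgroup.map_subtype_le _) with h | h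
      · exact hT.2 ((Subgroup.map_eq_bot_iff_of_injective _ N.subtype_injective).1 h)
      · apply hTtop
        rw [eq_top_iff]
        intro x _
        have hx : (x : G) ∈ T.map N.subtype := by rw [h]; exact x.2
        obtain ⟨t, ht, htx⟩ := hx
        have : t = x := Subtype.ext htx
        rwa [← this]
    have hfaithN : FaithfulSMul N X := inferInstance
    have hTtr : IsPretransitive T X := normal_isPretransitive T hT.2
    -- semiregularity of commuting partners of transitive groups
    have hsemi : ∀ A B : Subgroup N, IsPretransitive A X → (∀ x ∈ A, ∀ y ∈ B, x * y = y * x) →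
        ∀ (y : N) (a : X), y ∈ B → y • a = a → y = 1 := by
      intro A B hA hAB y a hy hya
      apply FaithfulSMul.eq_of_smul_eq_smul (α := X)
      intro b
      obtain ⟨⟨x, hx⟩, hxa⟩ := exists_smul_eq A a b
      have hxa' : x • a = b := hxa
      rw [one_smul, ← hxa', ← mul_smul, ← hAB x hx y hy, mul_smul, hya]
    have hcardle : ∀ B : Subgroup N, (∀ (y : N) (a : X), y ∈ B → y • a = a → y = 1) →
        Nat.card B ∣ Nat.card X := by
      intro B hB
      obtain ⟨a⟩ := hne
      have hsr : ∀ x : X, stabilizer B x = ⊥ := by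
        intro x
        rw [Subgroup.eq_bot_iff_forall]
        intro y hy
        exact Subtype.ext (hB y x y.2 hy)
      have h1 : Nat.card X = ∑ᶠ ω : orbitRel.Quotient B X, Nat.card (orbitRel.Quotient.orbit ω) := by
        have := Fintype.ofFinite X
        have := Fintype.ofFinite (orbitRel.Quotient B X)
        rw [finsum_eq_sum_of_fintype, Nat.card_congr (selfEquivSigmaOrbits' B X), Nat.card_sigma]
      rw [h1]
      have := Fintype.ofFinite (orbitRel.Quotient B X)
      rw [finsum_eq_sum_of_fintype]
      apply Finset.dvd_sum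
      intro ω _
      induction ω using Quotient.inductionOn' with
      | h x =>
        have h2 : Nat.card (orbit B x) = Nat.card B := by
          have h3 := MulAction.index_stabilizer B x
          rw [hsr x, Subgroup.index_bot] at h3
          rw [h3]
          rfl
        rw [orbitRel.Quotient.orbit_mk, h2]
    obtain ⟨g, hg⟩ := hexg
    have hTg : T ⊓ cT g = ⊥ := (hdich g).resolve_left hg
    have hcTng := hcTn g
    have hcommT : ∀ h : G, T ⊓ cT h = ⊥ → ∀ x ∈ T, ∀ y ∈ cT h, x * y = y * x := by
      intro h hb x hx y hy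
      have := hcTn h
      exact commute_of_inf_eq_bot hb hx hy
    have hcTtr : IsPretransitive (cT g) X := normal_isPretransitive (cT g) (hcTb g)
    have hTcard : Nat.card T ∣ Nat.card X := by
      apply hcardle
      intro y a hy hya
      exact hsemi (cT g) T hcTtr (fun x hx y hy => (hcommT g hTg y hy x hx).symm) y a hy hya
    have hCcard : Nat.card (Subgroup.centralizer (T : Set N)) ∣ Nat.card X := by
      apply hcardle
      intro y a hy hya
      exact hsemi T _ hTtr (fun x hx y hy => Subgroup.mem_centralizer_iff.1 hy x hx) y a hy hya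
    have hsup : T ⊔ Subgroup.centralizer (T : Set N) = ⊤ := by
      let M : Subgroup N := ⨆ h : G, cT h
      have hMle : M ≤ T ⊔ Subgroup.centralizer (T : Set N) := by
        apply iSup_le
        intro h
        rcases hdich h with h' | h'
        · rw [h']; exact le_sup_left
        · refine le_trans ?_ le_sup_right
          intro y hy
          rw [Subgroup.mem_centralizer_iff]
          intro x hx
          exact hcommT h h' x hx y hy
      have hMG : (M.map N.subtype).Normal := by
        refine ⟨?_⟩
        rintro _ ⟨t, ht, rfl⟩ g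
        have h1 : M.map (MulAut.conjNormal g : MulAut N).toMonoidHom ≤ M := by
          rw [Subgroup.map_iSup]
          apply iSup_le
          intro k
          refine le_trans ?_ (le_iSup _ (g * k))
          rintro _ ⟨x, hx, rfl⟩
          obtain ⟨t, ht, htx⟩ := (hcTmem k x).1 hx
          rw [hcTmem]
          refine ⟨t, ht, ?_⟩
          change _ = (((MulAut.conjNormal g : MulAut N) x : N) : G)
          rw [MulAut.conjNormal_apply, ← htx]
          group
        exact ⟨_, h1 ⟨t, ht, rfl⟩, MulAut.conjNormal_apply g t⟩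
      have hTM : T ≤ M := by
        refine le_trans ?_ (le_iSup _ 1)
        intro t ht
        rw [hcTmem]
        exact ⟨t, ht, by group⟩
      rcases hmin _ hMG (Subgroup.map_subtype_le _) with h | h
      · exfalso
        have h1 := (Subgroup.map_eq_bot_iff_of_injective _ N.subtype_injective).1 h
        apply hT.2
        rw [eq_bot_iff, ← h1]; exact hTM
      · rw [eq_top_iff]
        refine le_trans ?_ hMle
        intro x _
        have hx : (x : G) ∈ M.map N.subtype := by rw [h]; exact x.2
        obtain ⟨t, ht, htx⟩ := hx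
        have : t = x := Subtype.ext htx
        rwa [← this]
    -- the order of N divides |X|^2
    have hNcard : Nat.card N ∣ Nat.card X * Nat.card X := by
      have hCn : (Subgroup.centralizer (T : Set N)).Normal := inferInstance
      have h1 : (Subgroup.centralizer (T : Set N)).index ∣ Nat.card T := by
        rw [← Subgroup.relIndex_top_right, ← hsup, Subgroup.relIndex_sup_right]
        exact Subgroup.relIndex_dvd_card _ _
      rw [← Subgroup.card_mul_index (Subgroup.centralizer (T : Set N))]
      exact mul_dvd_mul hCcard (h1.trans hTcard)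
    apply hreg
    intro a
    have h3 := card_stab_mul N htr a
    have h4 : Nat.card (N ⊓ stabilizer G a : Subgroup G) ∣ Nat.card X := by
      rw [← h3] at hNcard
      exact Nat.dvd_of_mul_dvd_mul_right (Finite.card_pos_iff.2 hne) hNcard
    have h5 := stab_trivial h2 N a (fun p _ hpd => hpd.trans h4)
    rw [Subgroup.eq_bot_iff_forall] at h5 ⊢
    intro x hx
    exact Subtype.ext (h5 x ⟨x.2, hx⟩)

end

end Cfsg.Agent.H37
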