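import Mathlib
import Cfsg.Agent.H37.FNF

/-!
# Class numbers of Zassenhaus groups
-/

set_option autoImplicit false
set_option linter.unusedSectionVars false
set_option linter.unusedVariables false

namespace Cfsg.Agent.H37.ZT

open Cfsg Cfsg.Agent.Char Cfsg.Agent.CharBase Cfsg.Agent.H75 Cfsg.Agent.H34 Cfsg.Agent.Zass MulAction
open scoped ComplexConjugate BigOperators

universe u v

section

variable {G : Type u} [Group G] [Fintype G]

open Classical in
theorem sum_cz_classes (Q : G → Prop) (hQ : ∀ g k : G, Q g → Q (k * g * k⁻¹)) :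
    ∑ g : G, (if Q g then (cz g : ℤ) else 0) =
      Nat.card G * Nat.card {C : ConjClasses G // ∀ g : G, ConjClasses.mk g = C → Q g} := by
  have : Fintype (ConjClasses G) := Fintype.ofFinite _
  rw [← Finset.sum_fiberwise Finset.univ (fun g : G => ConjClasses.mk g)]
  have h1 : ∀ C : ConjClasses G, ∑ g ∈ Finset.univ.filter (fun g : G => ConjClasses.mk g = C),
      (if Q g then (cz g : ℤ) else 0) = if (∀ g : G, ConjClasses.mk g = C → Q g) then (Nat.card G : ℤ) else 0 := by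
    intro C
    obtain ⟨t, rfl⟩ := ConjClasses.mk_surjective C
    by_cases ht : Q t
    · have h2 : ∀ g : G, ConjClasses.mk g = ConjClasses.mk t → Q g := by
        intro g hg
        obtain ⟨k, hk⟩ := isConj_iff.1 (ConjClasses.mk_eq_mk_iff_isConj.1 hg.symm)
        rw [← hk]
        exact hQ t k ht
      rw [if_pos h2]
      have h3 : ∀ g ∈ Finset.univ.filter (fun g : G => ConjClasses.mk g = ConjClasses.mk t),
          (if Q g then (cz g : ℤ) else 0) = cz t := by
        intro g hg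
        have hg' := (Finset.mem_filter.1 hg).2
        rw [if_pos (h2 g hg')]
        obtain ⟨k, hk⟩ := isConj_iff.1 (ConjClasses.mk_eq_mk_iff_isConj.1 hg'.symm)
        rw [← hk, cz_conj]
      rw [Finset.sum_congr rfl h3, Finset.sum_const, nsmul_eq_mul]
      have h4 := card_isConj_mul_card_centralizer t
      have h5 : (Finset.univ.filter (fun g : G => ConjClasses.mk g = ConjClasses.mk t)).card =
          Nat.card {x : G // IsConj t x} := by
        rw [Nat.card_eq_fintype_card, Fintype.card_subtype]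
        congr 1
        ext g
        simp only [Finset.mem_filter, Finset.mem_univ, true_and]
        rw [ConjClasses.mk_eq_mk_iff_isConj]
        exact ⟨fun h => h.symm, fun h => h.symm⟩
      rw [h5, ← h4, cz]
      push_cast
      ring
    · rw [if_neg (fun h2 => ht (h2 t rfl))]
      apply Finset.sum_eq_zero
      intro g hg
      have hg' := (Finset.mem_filter.1 hg).2
      rw [if_neg]
      intro h2
      apply ht
      obtain ⟨k, hk⟩ := isConj_iff.1 (ConjClasses.mk_eq_mk_iff_isConj.1 hg')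
      rw [← hk]
      exact hQ g k h2
  rw [Finset.sum_congr rfl (fun C _ => h1 C), ← Finset.sum_filter, Finset.sum_const, nsmul_eq_mul,
    Nat.card_eq_fintype_card (α := {C : ConjClasses G // ∀ g : G, ConjClasses.mk g = C → Q g}), Fintype.card_subtype,
    mul_comm]

end

section

variable {G : Type u} {Ω : Type v} [Group G] [MulAction G Ω] [Fintype G] [Finite Ω]
  {a b : Ω} {U : Subgroup G} {n e : ℕ}

open Classical in
theorem ZN.ip_even (h : ZN G a b U n e) (he : 2 ≤ e) (hn : Even n) :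
    (((n : ℤ) + 1) * (n * e)) * (e + 1) ≤ 2 * ∑ g : G, (if nfix Ω g = 0 then (ip g : ℤ) else 0) := by
  have hodd : Odd (Nat.card Ω) := by rw [h.hn]; exact hn.add_one
  have hΩ2 : 2 ≤ Nat.card Ω := by rw [h.hn]; have := h.npos; omega
  obtain ⟨o1, o2, o3⟩ := odd_inv h.z hodd hΩ2 h.hab
  rw [h.he] at o1 o2 o3
  rw [h.hn] at o3
  have P := sum_fix_zero (R := ℤ) h.z h.hab h.ker (fun g => (ip g : ℤ)) (fun g k => by rw [ip_conj]) h.hn
  have P1 : ∑ g : G, (ip g : ℤ) = ((n + 1) * e) ^ 2 := by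
    have := sum_ip (G := G)
    rw [o3] at this
    exact_mod_cast this
  have P2 : (ip (1 : G) : ℤ) = (n + 1) * e := by
    rw [ip_one, o3]; push_cast; ring
  have PE := sum_sub_le (stab2 G a b) (fun g => (g • a = a ∧ g • b = b) ∧ g ≠ 1) (fun g => by rw [mem_stab2]) ip e
    (fun g hg hg1 => h.ip_E_le (fun t hta htb => by
      obtain ⟨d, -, hd⟩ := inv_fix_odd h.z hodd t.2.1 t.2.2
      exact h.hab ((hd a hta).trans (hd b htb).symm)) hg hg1)
  rw [h.he] at PE
  have hU0 : ∀ u ∈ U, u ≠ 1 → u * u ≠ 1 → ip u = 0 := by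
    intro u hu hu1 hu2
    rw [ip, Nat.card_eq_zero]
    left
    constructor
    intro p
    exact hu2 (h.prod_inv he hn hu hu1 p)
  have hU1 : ∀ u ∈ U, u ≠ 1 → u * u = 1 → ip u ≤ e - 1 := by
    intro u hu hu1 hu2
    let IU := {t : Inv G // t.1 • a = a}
    let u' : IU := ⟨⟨u, hu2, hu1⟩, h.ker.fix hu⟩
    have h3 : Nat.card {t : IU // t ≠ u'} = e - 1 := by
      have : Fintype IU := Fintype.ofFinite _
      rw [← o1, Nat.card_eq_fintype_card, Nat.card_eq_fintype_card, Fintype.card_subtype_compl,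
        Fintype.card_subtype_eq]
    rw [← h3]
    refine Nat.card_le_card_of_injective (fun p => (⟨⟨p.1.1, h.inv_U_fix hu hu1 (ip_inverts p)⟩, ?_⟩ :
      {t : IU // t ≠ u'})) ?_
    · intro h4
      have h5 : p.1.1.1 = u := congrArg (fun t : IU => t.1.1) h4
      have h6 := p.2
      rw [h5] at h6
      exact p.1.2.2.2 (mul_eq_left.1 h6)
    · intro p q hpq
      have h4 : p.1.1 = q.1.1 := congrArg (fun t : {t : IU // t ≠ u'} => t.1.1) hpq
      exact ip_inj (congrArg Subtype.val h4)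
  have hcardIU : (Finset.univ.filter (fun g : G => (g ∈ U ∧ g ≠ 1) ∧ g * g = 1)).card = e := by
    rw [← o1, ← Fintype.card_subtype, ← Nat.card_eq_fintype_card]
    apply Nat.card_congr
    refine ⟨fun g => ⟨⟨g.1, g.2.2, g.2.1.2⟩, h.ker.fix g.2.1.1⟩, fun t => ⟨t.1.1, ⟨h.inv_mem_U hn t.1.2.1 t.1.2.2 t.2,
      t.1.2.2⟩, t.1.2.1⟩, fun g => rfl, fun t => rfl⟩
  have PU : ∑ g : G, (if g ∈ U ∧ g ≠ 1 then (ip g : ℤ) else 0) ≤ e * (e - 1) := by
    have h4 : ∀ g : G, (if g ∈ U ∧ g ≠ 1 then (ip g : ℤ) else 0) ≤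
        if (g ∈ U ∧ g ≠ 1) ∧ g * g = 1 then ((e : ℤ) - 1) else 0 := by
      intro g
      by_cases h5 : g ∈ U ∧ g ≠ 1
      · by_cases h6 : g * g = 1
        · rw [if_pos h5, if_pos ⟨h5, h6⟩]
          have := hU1 g h5.1 h5.2 h6
          omega
        · rw [if_pos h5, if_neg (fun h => h6 h.2), hU0 g h5.1 h5.2 h6]; simp
      · rw [if_neg h5, if_neg (fun h => h5 h.1)]
    refine (Finset.sum_le_sum (fun g _ => h4 g)).trans (le_of_eq ?_)
    rw [← Finset.sum_filter, Finset.sum_const, hcardIU, nsmul_eq_mul]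
  rw [P1, P2] at P
  have q1 : 2 * ((n : ℤ) + 1) * ∑ g : G, (if g ∈ U ∧ g ≠ 1 then (ip g : ℤ) else 0) ≤
      2 * ((n : ℤ) + 1) * (e * (e - 1)) := mul_le_mul_of_nonneg_left PU (by positivity)
  have q2 : (n : ℤ) * ((n : ℤ) + 1) * ∑ g : G, (if (g • a = a ∧ g • b = b) ∧ g ≠ 1 then (ip g : ℤ) else 0) ≤
      (n : ℤ) * ((n : ℤ) + 1) * (((e : ℤ) - 1) * e) := mul_le_mul_of_nonneg_left PE (by positivity)
  have e1 : (((n : ℤ) + 1) * (n * e)) * (e + 1) = 2 * (((n + 1) * e) ^ 2) - 2 * ((n + 1) * e) -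
        2 * ((n : ℤ) + 1) * (e * (e - 1)) - (n : ℤ) * ((n : ℤ) + 1) * (((e : ℤ) - 1) * e) := by ring
  rw [e1]
  linarith

open Classical in
theorem ZN.ip_odd (h : ZN G a b U n e) (hn : Odd n) :
    2 * ((n : ℤ) * e) ^ 2 - 2 * (n * e) - n * (n + 1) * ((e - 1) * e) ≤
      2 * ∑ g : G, (if nfix Ω g = 0 then (ip g : ℤ) else 0) := by
  have o3 := h.card_inv_odd hn
  have P := sum_fix_zero (R := ℤ) h.z h.hab h.ker (fun g => (ip g : ℤ)) (fun g k => by rw [ip_conj]) h.hn
  have P1 : ∑ g : G, (ip g : ℤ) = (n * e) ^ 2 := by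
    have := sum_ip (G := G)
    rw [o3] at this
    exact_mod_cast this
  have P2 : (ip (1 : G) : ℤ) = n * e := by
    rw [ip_one, o3]; push_cast; ring
  have PE := sum_sub_le (stab2 G a b) (fun g => (g • a = a ∧ g • b = b) ∧ g ≠ 1) (fun g => by rw [mem_stab2]) ip e
    (fun g hg hg1 => h.ip_E_le (fun t hta htb => h.inv_free hn t.2.1 t.2.2 a hta) hg hg1)
  rw [h.he] at PE
  have PU : ∑ g : G, (if g ∈ U ∧ g ≠ 1 then (ip g : ℤ) else 0) = 0 := by
    apply Finset.sum_eq_zero
    intro g _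
    split_ifs with h1
    · have : ip g = 0 := by
        rw [ip, Nat.card_eq_zero]
        left
        exact ⟨fun p => h.inv_free hn p.1.1.2.1 p.1.1.2.2 a (h.inv_U_fix h1.1 h1.2 (ip_inverts p))⟩
      rw [this]; rfl
    · rfl
  rw [P1, P2, PU] at P
  have q2 : (n : ℤ) * ((n : ℤ) + 1) * ∑ g : G, (if (g • a = a ∧ g • b = b) ∧ g ≠ 1 then (ip g : ℤ) else 0) ≤
      (n : ℤ) * ((n : ℤ) + 1) * (((e : ℤ) - 1) * e) := mul_le_mul_of_nonneg_left PE (by positivity)
  linarith

open Classical in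
/-- classes missing `U` -/
theorem ZN.card_classes (h : ZN G a b U n e) :
    2 * ∑ g : G, (if nfix Ω g = 0 then (ip g : ℤ) else 0) + n * (n + 1) * ((e - 1) * e) ≤
      2 * (Nat.card G * Nat.card {C : ConjClasses G // ∀ g : G, ConjClasses.mk g = C → g ∉ U}) := by
  obtain ⟨Q, hQd⟩ : ∃ Q : G → Prop, ∀ g, Q g ↔ ∀ k : G, k * g * k⁻¹ ∉ U := ⟨_, fun _ => Iff.rfl⟩
  have hQ : ∀ g k : G, Q g → Q (k * g * k⁻¹) := by
    intro g k hg
    rw [hQd] at hg ⊢
    intro l
    have := hg (l * k)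
    have e1 : l * k * g * (l * k)⁻¹ = l * (k * g * k⁻¹) * l⁻¹ := by group
    rwa [e1] at this
  have h1 := sum_cz_classes Q hQ
  have h2 : Nat.card {C : ConjClasses G // ∀ g : G, ConjClasses.mk g = C → Q g} =
      Nat.card {C : ConjClasses G // ∀ g : G, ConjClasses.mk g = C → g ∉ U} := by
    apply Nat.card_congr
    apply Equiv.subtypeEquivRight
    intro C
    constructor
    · intro h3 g hg
      have := (hQd g).1 (h3 g hg) 1
      simpa using this
    · intro h3 g hg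
      rw [hQd]
      intro k
      apply h3
      rw [← hg, ConjClasses.mk_eq_mk_iff_isConj]
      exact (isConj_iff.2 ⟨k, rfl⟩).symm
  rw [h2] at h1
  rw [← h1]
  have hQQ : ∀ g k : G, Q (k * g * k⁻¹) ↔ Q g := by
    intro g k
    refine ⟨fun hg => ?_, hQ g k⟩
    have := hQ _ k⁻¹ hg
    have e1 : k⁻¹ * (k * g * k⁻¹) * k⁻¹⁻¹ = g := by group
    rwa [e1] at this
  have P := sum_fix_zero (R := ℤ) h.z h.hab h.ker (fun g => if Q g then (cz g : ℤ) else 0) (fun g k => by
    by_cases hg : Q g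
    · rw [if_pos hg, if_pos ((hQQ g k).2 hg), cz_conj]
    · rw [if_neg hg, if_neg (fun h => hg ((hQQ g k).1 h))]) h.hn
  have hQ1 : ¬ Q 1 := fun h1 => (hQd 1).1 h1 1 (by simp)
  have P2 : ∑ g : G, (if g ∈ U ∧ g ≠ 1 then (if Q g then (cz g : ℤ) else 0) else 0) = 0 := by
    apply Finset.sum_eq_zero
    intro g _
    split_ifs with h3 h4
    · exact absurd h3.1 (by simpa using (hQd g).1 h4 1)
    · rfl
    · rfl
  have hfree : ∀ g : G, nfix Ω g = 0 → Q g := by
    intro g hg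
    rw [hQd]
    intro k hk
    rw [nfix, Nat.card_eq_zero] at hg
    rcases hg with h3 | h3
    · have h5 : g • k⁻¹ • a = k⁻¹ • a := by
        have h4 := h.ker.fix hk
        rw [mul_smul, mul_smul] at h4
        rw [eq_inv_smul_iff]
        exact h4
      exact h3.elim ⟨k⁻¹ • a, h5⟩
    · exact absurd (Subtype.finite : Finite (fixedBy Ω g)) (not_finite_iff_infinite.2 h3)
  have hE : ∀ g : G, (g • a = a ∧ g • b = b) ∧ g ≠ 1 → Q g := by
    rintro g ⟨⟨hga, hgb⟩, hg1⟩
    rw [hQd]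
    intro k hk
    have hne : k * g * k⁻¹ ≠ 1 := fun h3 => hg1 (conj_eq_one_iff.1 h3)
    have h3 : ∀ c : Ω, g • c = c → k • c = a := by
      intro c hc
      by_contra h4
      apply h.frob.2.1 _ hk hne (k • c) h4
      rw [mul_smul, mul_smul, inv_smul_smul, hc]
    exact h.hab (smul_left_cancel k ((h3 a hga).trans (h3 b hgb).symm))
  have P3 : ∑ g : G, (if nfix Ω g = 0 then (if Q g then (cz g : ℤ) else 0) else 0) =
      ∑ g : G, (if nfix Ω g = 0 then (cz g : ℤ) else 0) := by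
    apply Finset.sum_congr rfl
    intro g _
    by_cases h3 : nfix Ω g = 0
    · rw [if_pos h3, if_pos h3, if_pos (hfree g h3)]
    · rw [if_neg h3, if_neg h3]
  have P4 : ∑ g : G, (if (g • a = a ∧ g • b = b) ∧ g ≠ 1 then (if Q g then (cz g : ℤ) else 0) else 0) =
      ∑ g : G, (if (g • a = a ∧ g • b = b) ∧ g ≠ 1 then (cz g : ℤ) else 0) := by
    apply Finset.sum_congr rfl
    intro g _
    by_cases h3 : (g • a = a ∧ g • b = b) ∧ g ≠ 1
    · rw [if_pos h3, if_pos h3, if_pos (hE g h3)]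
    · rw [if_neg h3, if_neg h3]
  rw [if_neg hQ1, P2, P3, P4] at P
  have h4 := le_sum_sub (stab2 G a b) (fun g => (g • a = a ∧ g • b = b) ∧ g ≠ 1) (fun g => by rw [mem_stab2]) cz e (fun g hg _ => by
    rw [cz, ← h.he]
    refine Nat.card_le_card_of_injective (Subgroup.inclusion (fun x hx => ?_)) (Subgroup.inclusion_injective _)
    rw [Subgroup.mem_centralizer_singleton_iff]
    exact h.Ec x hx g hg)
  rw [h.he] at h4
  have h6 : (n : ℤ) * ((n : ℤ) + 1) * (((e : ℤ) - 1) * e) ≤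
      (n : ℤ) * ((n : ℤ) + 1) * ∑ g : G, (if (g • a = a ∧ g • b = b) ∧ g ≠ 1 then (cz g : ℤ) else 0) :=
    mul_le_mul_of_nonneg_left h4 (by positivity)
  have hle : ∑ g : G, (if nfix Ω g = 0 then (ip g : ℤ) else 0) ≤ ∑ g : G, (if nfix Ω g = 0 then (cz g : ℤ) else 0) := by
    apply Finset.sum_le_sum
    intro g _
    split_ifs
    · exact_mod_cast ip_le_cz g
    · exact le_refl _
  linarith

end

end Cfsg.Agent.H37.ZT
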