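import Mathlib
import Cfsg.Agent.H37.FNF
import Cfsg.Agent.Char.FTIneq

/-!
# Characters induced from linear characters of the point stabiliser
-/

set_option autoImplicit false
set_option linter.unusedSectionVars false
set_option linter.unusedVariables false

namespace Cfsg.Agent.H37.ZT

open Cfsg Cfsg.Agent.Char Cfsg.Agent.CharBase Cfsg.Agent.H75 Cfsg.Agent.H34 Cfsg.Agent.Zass MulAction
open scoped ComplexConjugate BigOperators

universe u v

section

variable {G : Type u} {Ω : Type v} [Group G] [MulAction G Ω] [Fintype G] [Finite Ω]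
  {a b : Ω} {U : Subgroup G} {n e : ℕ}

theorem ZN.ind_irr (h : ZN G a b U n e) (he : 2 ≤ e) {μ : stabilizer G a → ℂ}
    (hμ : IsCharacter (stabilizer G a) μ) (hμ1 : μ 1 = 1) (hμU : ∀ u : stabilizer G a, (u : G) ∈ U → μ u = 1)
    (hμne : μ ≠ fun _ => 1) :
    IsIrrCharacter G (indFun (stabilizer G a) μ) ∧ ∀ u ∈ U, u ≠ 1 → indFun (stabilizer G a) μ u = 1 := by
  classical
  have : Fintype U := Fintype.ofFinite _
  have : Fintype (stabilizer G a) := Fintype.ofFinite _
  have : Fintype (UB a U) := Fintype.ofFinite _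
  have : Fintype (IrrCharacter G) := Fintype.ofFinite _
  have hnm := h.normal
  have hμi : IsIrrCharacter (stabilizer G a) μ := linChar_isIrr hμ hμ1
  -- values on `U`
  have hval : ∀ u ∈ U, u ≠ 1 → indFun (stabilizer G a) μ u = 1 := by
    intro u hu hu1
    rw [indFun]
    have h1 : ∀ x : G, extendByZero (stabilizer G a) μ (x⁻¹ * u * x) =
        if x ∈ stabilizer G a then 1 else 0 := by
      intro x
      by_cases hx : x ∈ stabilizer G a
      · have h2 : x⁻¹ * u * x ∈ U := by
          have := h.ker.norm x⁻¹ ((stabilizer G a).inv_mem hx) u hu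
          rwa [inv_inv] at this
        rw [extendByZero_of_mem _ _ (h.ker.le h2), if_pos hx]
        exact hμU _ h2
      · rw [if_neg hx, extendByZero_of_notMem]
        intro h2
        have hxa : x • a ≠ a := hx
        apply h.frob.2.1 u hu hu1 (x • a) hxa
        have h3 : (x⁻¹ * u * x) • a = a := h2
        rw [mul_smul, mul_smul, inv_smul_eq_iff] at h3
        exact h3
    rw [Finset.sum_congr rfl (fun x _ => h1 x), Finset.sum_boole]
    have h2 : (Finset.univ.filter (fun x : G => x ∈ stabilizer G a)).card = Nat.card (stabilizer G a) := by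
      rw [Nat.card_eq_fintype_card, Fintype.card_subtype]
    rw [h2, inv_mul_cancel₀]
    exact Nat.cast_ne_zero.2 Nat.card_pos.ne'
  refine ⟨?_, hval⟩
  obtain ⟨aU, haU⟩ := exists_aU (G := G) (U := U)
  have hch : IsCharacter G (indFun (stabilizer G a) μ) := indFun_isCharacter _ _ hμ
  obtain ⟨m, hm1, hm2⟩ := exists_mult_of_isCharacter hch
  -- multiplicities
  have hcoef : ∀ χ : IrrCharacter G, (aU χ = 0 ∨ aU χ = 1) → m χ = 0 := by
    intro χ hχ
    have h1 := frobenius_reciprocity (stabilizer G a) μ (χ : G → ℂ) (irr_isClassFunction χ)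
    rw [hm1 χ] at h1
    have hres : IsCharacter (stabilizer G a) (fun g : stabilizer G a => (χ : G → ℂ) g) :=
      isCharacter_restrict (irr_isCharacter χ) _
    have hμc : avgN (UB a U) μ = μ := avgN_of_const (UB a U) (fun k g => by
      rw [linChar_mul hμ hμ1, hμU k k.2, one_mul])
    have h2 : classInner μ (fun g : stabilizer G a => (χ : G → ℂ) g) =
        classInner μ (avgN (UB a U) (fun g : stabilizer G a => (χ : G → ℂ) g)) := by
      rw [← Cfsg.Agent.Char.FTI.classInner_avgN, hμc]
    rw [h2] at h1
    have h3 : classInner μ (avgN (UB a U) (fun g : stabilizer G a => (χ : G → ℂ) g)) = 0 := by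
      rcases hχ with h4 | h4
      · have h5 : avgN (UB a U) (fun g : stabilizer G a => (χ : G → ℂ) g) = 0 := by
          apply eq_zero_of_degree_zero (avgN_isCharacter (UB a U) hres)
          rw [avgN_one_apply]
          exact (inner_UB h.ker.le (χ : G → ℂ)).trans (by rw [haU χ, h4, Nat.cast_zero])
        rw [h5, classInner]
        simp
      · have h5 := h.avg_eq_one χ (by rw [haU χ, h4, Nat.cast_one])
        rw [h5]
        exact classInner_irr_of_ne (χ := ⟨μ, hμi⟩) (ψ := oneIrr (stabilizer G a)) (fun h6 => hμne (congrArg Subtype.val h6))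
    rw [h3] at h1
    exact_mod_cast h1
  -- the sum of `m χ * aU χ`
  have hsum : ∑ χ : IrrCharacter G, m χ * aU χ = 2 := by
    have h1 : classInner (fun k : U => indFun (stabilizer G a) μ k) (fun _ => 1) = 2 := by
      rw [classInner, h.cardU]
      have h5 : ∀ k : U, indFun (stabilizer G a) μ k * conj (1 : ℂ) = (1 : ℂ) + (if k = 1 then (n : ℂ) else 0) := by
        intro k
        rw [map_one, mul_one]
        by_cases hk : k = 1
        · subst hk
          rw [Subgroup.coe_one, indFun_one_apply, hμ1, mul_one, if_pos rfl]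
          have h6 := Subgroup.card_mul_index (stabilizer G a)
          rw [h.cardB, h.card] at h6
          have h7 : (stabilizer G a).index = n + 1 := by
            have h8 : n * e * (stabilizer G a).index = n * e * (n + 1) := by rw [h6]; ring
            exact Nat.eq_of_mul_eq_mul_left (Nat.mul_pos h.npos h.epos) h8
          rw [h7]; push_cast; ring
        · rw [if_neg hk, add_zero]
          exact hval k k.2 (fun h => hk (Subtype.ext h))
      rw [Finset.sum_congr rfl (fun k _ => h5 k), Finset.sum_add_distrib, Finset.sum_const,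
        Finset.sum_ite_eq' Finset.univ (1 : U), if_pos (Finset.mem_univ _), Finset.card_univ,
        ← Nat.card_eq_fintype_card, h.cardU, nsmul_eq_mul]
      have hn : (n : ℂ) ≠ 0 := Nat.cast_ne_zero.2 h.npos.ne'
      field_simp
      ring
    have h2 : (fun k : U => indFun (stabilizer G a) μ k) =
        ∑ χ : IrrCharacter G, (m χ : ℂ) • (fun k : U => (χ : G → ℂ) k) := by
      funext k
      have h3 := congrFun hm2 (k : G)
      rw [Finset.sum_apply] at h3 ⊢
      rw [h3]
      apply Finset.sum_congr rfl
      intro ξ _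
      simp
    rw [h2, classInner_sum_left] at h1
    have h3 : ((∑ χ : IrrCharacter G, m χ * aU χ : ℕ) : ℂ) = ((2 : ℕ) : ℂ) := by
      push_cast
      rw [← h1]
      apply Finset.sum_congr rfl
      intro χ _
      rw [classInner_smul_left, haU χ]
    exact_mod_cast h3
  have hle : ∀ χ ∈ (Finset.univ : Finset (IrrCharacter G)), 2 * m χ ≤ m χ * aU χ := by
    intro χ _
    by_cases h1 : aU χ = 0 ∨ aU χ = 1
    · rw [hcoef χ h1]; simp
    · push Not at h1
      rw [mul_comm 2]
      exact Nat.mul_le_mul_left _ (by omega)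
  have hm : ∑ χ : IrrCharacter G, m χ ≤ 1 := by
    have h1 := Finset.sum_le_sum hle
    rw [← Finset.mul_sum, hsum] at h1
    omega
  have hne : ∑ χ : IrrCharacter G, m χ * aU χ ≠ 0 := by rw [hsum]; norm_num
  obtain ⟨χ0, -, hχ0⟩ := Finset.exists_ne_zero_of_sum_ne_zero hne
  have hmχ0 : 1 ≤ m χ0 := by
    by_contra h1
    have : m χ0 = 0 := by omega
    rw [this, zero_mul] at hχ0
    exact hχ0 rfl
  rw [← Finset.add_sum_erase _ _ (Finset.mem_univ χ0)] at hm
  have h1 : m χ0 = 1 := by omega
  have h2 : ∑ χ ∈ Finset.univ.erase χ0, m χ = 0 := by omega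
  have h3 : indFun (stabilizer G a) μ = (χ0 : G → ℂ) := by
    rw [hm2, ← Finset.add_sum_erase _ _ (Finset.mem_univ χ0), Finset.sum_eq_zero (s := Finset.univ.erase χ0)]
    · rw [h1]; simp
    · intro χ hχ
      rw [(Finset.sum_eq_zero_iff_of_nonneg (fun i _ => Nat.zero_le _)).1 h2 χ hχ]
      simp
  rw [h3]
  exact χ0.2

end

end Cfsg.Agent.H37.ZT
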