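import Mathlib

/-!
Generously transitive permutation groups (Neumann): multiple transitivity and orbits of pointwise stabilisers.
-/

set_option autoImplicit false
set_option linter.unusedSectionVars false

namespace Cfsg.Agent.H37

open Equiv
open scoped Pointwise

universe u

section

variable {α : Type u} [Fintype α] [DecidableEq α] {G : Subgroup (Perm α)} {k : ℕ}

/-- generous `k`-transitivity -/
def Generous (G : Subgroup (Perm α)) (k : ℕ) : Prop :=
  ∀ s : Finset α, s.card = k + 1 → ∀ σ : Perm ↥s, ∃ g ∈ G, ∀ x : ↥s, g (x : α) = σ x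

/-- two `k`-tuples inside a common `(k+1)`-set are conjugate -/
lemma Generous.move (hgen : Generous G k) {s : Finset α} (hs : s.card = k + 1) (x y : Fin k ↪ α)
    (hx : ∀ i, x i ∈ s) (hy : ∀ i, y i ∈ s) : ∃ g ∈ G, ∀ i, g (x i) = y i := by
  let x' : Fin k ↪ ↥s := ⟨fun i => ⟨x i, hx i⟩, fun i j h => x.injective (congrArg Subtype.val h)⟩
  let y' : Fin k ↪ ↥s := ⟨fun i => ⟨y i, hy i⟩, fun i j h => y.injective (congrArg Subtype.val h)⟩
  obtain ⟨σ, hσ⟩ := (Equiv.Perm.isMultiplyPretransitive ↥s k).exists_smul_eq x' y'
  obtain ⟨g, hg, h⟩ := hgen s hs σ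
  refine ⟨g, hg, fun i => ?_⟩
  have h1 := h (x' i)
  have h2 : σ (x' i) = y' i := congrArg (fun e : Fin k ↪ ↥s => e i) hσ
  rw [h2] at h1
  exact h1

lemma Generous.tuple (hgen : Generous G k) (hk : k < Fintype.card α) :
    ∀ (d : ℕ) (x y : Fin k ↪ α), ((Finset.univ.map y) \ (Finset.univ.map x)).card = d →
      ∃ g ∈ G, ∀ i, g (x i) = y i := by
  classical
  intro d
  induction d with
  | zero =>
    intro x y hd
    have hsub : Finset.univ.map y ⊆ Finset.univ.map x := by
      rw [← Finset.sdiff_eq_empty_iff_subset]; exact Finset.card_eq_zero.1 hd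
    obtain ⟨s, hs1, hs2⟩ := Finset.exists_superset_card_eq (s := Finset.univ.map x) (n := k + 1)
      (by simp) (by omega)
    exact hgen.move hs2 x y (fun i => hs1 (by simp)) (fun i => hs1 (hsub (by simp)))
  | succ d ih =>
    intro x y hd
    -- b in im y, not in im x
    obtain ⟨b, hb⟩ : ((Finset.univ.map y) \ (Finset.univ.map x)).Nonempty := by
      rw [← Finset.card_pos]; omega
    rw [Finset.mem_sdiff] at hb
    -- a in im x, not in im y
    have hcard : ((Finset.univ.map x) \ (Finset.univ.map y)).card = d + 1 := by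
      rw [← hd]
      have h1 := Finset.card_sdiff_add_card_inter (Finset.univ.map x) (Finset.univ.map y)
      have h2 := Finset.card_sdiff_add_card_inter (Finset.univ.map y) (Finset.univ.map x)
      rw [Finset.inter_comm] at h2
      simp only [Finset.card_map] at h1 h2
      omega
    obtain ⟨a, ha⟩ : ((Finset.univ.map x) \ (Finset.univ.map y)).Nonempty := by
      rw [← Finset.card_pos]; omega
    rw [Finset.mem_sdiff, Finset.mem_map] at ha
    obtain ⟨⟨i, -, rfl⟩, hay⟩ := ha
    have hbx : ∀ j, x j ≠ b := fun j h => hb.2 (by rw [← h]; simp)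
    let x' : Fin k ↪ α := ⟨Function.update x i b, by
      intro j l hjl
      simp only [Function.update_apply] at hjl
      by_cases h1 : j = i
      · by_cases h2 : l = i
        · rw [h1, h2]
        · rw [if_pos h1, if_neg h2] at hjl
          exact absurd hjl.symm (hbx l)
      · by_cases h2 : l = i
        · rw [if_neg h1, if_pos h2] at hjl
          exact absurd hjl (hbx j)
        · rw [if_neg h1, if_neg h2] at hjl
          exact x.injective hjl⟩
    have hx' : ∀ j, x' j = if j = i then b else x j := fun j => Function.update_apply _ _ _ _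
    obtain ⟨g, hg, hgx⟩ : ∃ g ∈ G, ∀ j, g (x j) = x' j := by
      have hsc : (insert b (Finset.univ.map x)).card = k + 1 := by
        rw [Finset.card_insert_of_notMem hb.2]; simp
      refine hgen.move hsc x x' (fun j => Finset.mem_insert_of_mem (by simp)) (fun j => ?_)
      rw [hx']
      split_ifs
      · exact Finset.mem_insert_self _ _
      · exact Finset.mem_insert_of_mem (by simp)
    obtain ⟨h, hh, hhx⟩ := ih x' y (by
      have : (Finset.univ.map y) \ (Finset.univ.map x') =
          ((Finset.univ.map y) \ (Finset.univ.map x)).erase b := by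
        ext z
        simp only [Finset.mem_sdiff, Finset.mem_map, Finset.mem_univ, true_and, Finset.mem_erase,
          not_exists]
        constructor
        · rintro ⟨h1, h2⟩
          refine ⟨?_, h1, ?_⟩
          · rintro rfl
            exact h2 i (by rw [hx', if_pos rfl])
          · intro j hj
            by_cases hji : j = i
            · subst hji
              obtain ⟨l, hl⟩ := h1
              exact hay (by rw [hj, ← hl]; simp)
            · exact h2 j (by rw [hx', if_neg hji]; exact hj)
        · rintro ⟨h1, h2, h3⟩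
          refine ⟨h2, fun j hj => ?_⟩
          rw [hx'] at hj
          split_ifs at hj
          · exact h1 hj.symm
          · exact h3 j hj
      rw [this, Finset.card_erase_of_mem (Finset.mem_sdiff.2 hb), hd]; rfl)
    exact ⟨h * g, G.mul_mem hh hg, fun j => by rw [Perm.mul_apply, hgx, hhx]⟩

theorem Generous.isMultiplyPretransitive (hgen : Generous G k) (hk : k < Fintype.card α) :
    MulAction.IsMultiplyPretransitive G α k := by
  rw [MulAction.isMultiplyPretransitive_iff]
  intro x y
  obtain ⟨g, hg, h⟩ := hgen.tuple hk _ x y rfl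
  exact ⟨⟨g, hg⟩, by ext i; exact h i⟩

theorem Generous.orbits (hgen : Generous G k) {s : Finset α} (hs : s.card = k) {a b : α}
    (hb : b ∉ s) {g : Perm α} (hg : g ∈ G) (hgs : ∀ x ∈ s, g⁻¹ x ∈ s) (hga : g a = b) :
    ∃ g ∈ G, (∀ x ∈ s, g x = x) ∧ g a = b := by
  classical
  let t := insert b s
  have ht : t.card = k + 1 := by rw [Finset.card_insert_of_notMem hb, hs]
  have hgs' : ∀ x ∈ s, g x ∈ s := by
    -- finite: g⁻¹ maps s to s injectively, hence onto
    intro x hx
    have himg : s.image (fun y => g⁻¹ y) = s := by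
      apply Finset.eq_of_subset_of_card_le
      · intro y hy
        obtain ⟨z, hz, rfl⟩ := Finset.mem_image.1 hy
        exact hgs z hz
      · rw [Finset.card_image_of_injective _ (g⁻¹).injective]
    rw [← himg] at hx
    obtain ⟨z, hz, rfl⟩ := Finset.mem_image.1 hx
    simpa using hz
  let f : ↥t → ↥t := fun y => if hy : (y : α) ∈ s then ⟨g⁻¹ y, Finset.mem_insert_of_mem (hgs y hy)⟩ else y
  have hfin : Function.Injective f := by
    rintro ⟨y, hy⟩ ⟨z, hz⟩ h
    simp only [f] at h
    by_cases h1 : y ∈ s
    · by_cases h2 : z ∈ s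
      · rw [dif_pos h1, dif_pos h2] at h
        have := congrArg Subtype.val h
        simp only [EmbeddingLike.apply_eq_iff_eq] at this
        exact Subtype.ext this
      · rw [dif_pos h1, dif_neg h2] at h
        have := congrArg Subtype.val h
        simp only at this
        exact absurd (this ▸ hgs y h1) h2
    · by_cases h2 : z ∈ s
      · rw [dif_neg h1, dif_pos h2] at h
        have := congrArg Subtype.val h
        simp only at this
        exact absurd (this.symm ▸ hgs z h2) h1
      · rw [dif_neg h1, dif_neg h2] at h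
        exact h
  let σ : Perm ↥t := Equiv.ofBijective f (Finite.injective_iff_bijective.1 hfin)
  obtain ⟨h, hh, hσ⟩ := hgen t ht σ
  refine ⟨h * g, G.mul_mem hh hg, ?_, ?_⟩
  · intro x hx
    have h1 := hσ ⟨g x, Finset.mem_insert_of_mem (hgs' x hx)⟩
    have h2 : σ ⟨g x, Finset.mem_insert_of_mem (hgs' x hx)⟩ = f ⟨g x, Finset.mem_insert_of_mem (hgs' x hx)⟩ := rfl
    rw [h2] at h1
    simp only [f, dif_pos (hgs' x hx)] at h1
    rw [Perm.mul_apply, h1]; simp
  · have h1 := hσ ⟨b, Finset.mem_insert_self _ _⟩
    have h2 : σ ⟨b, Finset.mem_insert_self _ _⟩ = f ⟨b, Finset.mem_insert_self _ _⟩ := rfl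
    rw [h2] at h1
    simp only [f, dif_neg hb] at h1
    rw [Perm.mul_apply, hga, h1]

end

end Cfsg.Agent.H37
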