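import Mathlib
import Cfsg.Agent.H37.NormalMT

/-!
Jordan's theorem on normal subgroups of multiply transitive groups.
-/

set_option autoImplicit false

namespace Cfsg.Agent.H37

open MulAction SubMulAction

universe u

lemma eq_top_of_toPermHom_surjective {α : Type u} {G : Subgroup (Equiv.Perm α)}
    (h : Function.Surjective (toPermHom G α)) : G = ⊤ := by
  rw [eq_top_iff]
  intro σ _
  obtain ⟨g, hg⟩ := h σ
  have : σ = g := by
    rw [← hg]; ext x; rfl
  rw [this]; exact g.2

theorem jordan_normal {α : Type u} [Fintype α] [DecidableEq α] (G : Subgroup (Equiv.Perm α)) {k : ℕ}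
    (hk : 1 < k) (hdeg : k < Fintype.card α) (hG : MulAction.IsMultiplyPretransitive G α k)
    (N : Subgroup G) [N.Normal] (hN : N ≠ ⊥) :
    MulAction.IsMultiplyPretransitive N α (k - 1) ∨
      (k = 3 ∧ IsMulCommutative N ∧ ∀ n ∈ N, n ^ 2 = 1) := by
  obtain ⟨m, rfl⟩ : ∃ m, k = m + 1 := ⟨k - 1, by omega⟩
  rw [Nat.add_sub_cancel]
  have hcard : Nat.card α = Fintype.card α := Nat.card_eq_fintype_card
  have hle : ∀ j : ℕ, j ≤ Fintype.card α → (j : ℕ∞) ≤ ENat.card α := by
    intro j hj
    rw [ENat.card_eq_coe_natCard, hcard]; exact_mod_cast hj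
  have hprim : IsMultiplyPreprimitive G α m :=
    isMultiplyPreprimitive_of_isMultiplyPretransitive_succ G α (hle _ (by omega))
  have hprim1 : IsPreprimitive G α := by
    rw [← is_one_preprimitive_iff]
    exact isMultiplyPreprimitive_of_le G α hprim (by omega) (hle _ (by omega))
  have htr : IsPretransitive N α := normal_isPretransitive N hN
  by_cases hreg : ∃ a : α, stabilizer N a ≠ ⊥
  · left
    by_cases htop : m ≤ 2 ∨ ¬ Function.Surjective (toPermHom G α)
    · exact normal_multTrans m (by omega) (by omega) hprim htop N inferInstance hN hreg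
    · push Not at htop
      obtain ⟨hm3, hsur⟩ := htop
      have hGtop := eq_top_of_toPermHom_surjective hsur
      let M : Subgroup (Equiv.Perm α) := N.map G.subtype
      have hM : M.Normal := by
        refine ⟨?_⟩
        rintro _ ⟨x, hx, rfl⟩ g
        have hg : g ∈ G := by rw [hGtop]; trivial
        exact ⟨⟨g, hg⟩ * x * ⟨g, hg⟩⁻¹, (inferInstance : N.Normal).conj_mem x hx _, rfl⟩
      have hM1 : Nontrivial M := by
        rw [Subgroup.nontrivial_iff_ne_bot]
        intro h
        exact hN ((Subgroup.map_eq_bot_iff_of_injective N G.subtype_injective).1 h)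
      have hA : alternatingGroup α ≤ M := Equiv.Perm.alternatingGroup_le_of_normal (by omega) hM1
      have hAt := alternatingGroup.isMultiplyPretransitive α
      have hAm : IsMultiplyPretransitive (alternatingGroup α) α m :=
        isMultiplyPretransitive_of_le (n := Nat.card α - 2) (by omega) (by omega)
      rw [isMultiplyPretransitive_iff] at hAm ⊢
      intro x y
      obtain ⟨⟨g, hg⟩, hgx⟩ := hAm x y
      obtain ⟨n, hn, hng⟩ := hA hg
      refine ⟨⟨n, hn⟩, ?_⟩
      rw [← hgx]
      ext i
      change (n : Equiv.Perm α) (x i) = g (x i)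
      rw [← hng]; rfl
  · push Not at hreg
    rcases Nat.lt_or_ge m 2 with hm | hm
    · have : m = 1 := by omega
      subst this
      left
      exact is_one_pretransitive_iff.2 htr
    · have h2 : IsMultiplyPreprimitive G α 2 :=
        isMultiplyPreprimitive_of_le G α hprim hm (hle _ (by omega))
      rcases Nat.lt_or_ge m 3 with hm3 | hm3
      · have : m = 2 := by omega
        subst this
        right
        rcases reg_doubly (by omega) h2 htr hreg with h | h
        · omega
        · exact ⟨rfl, comm_of_sq h, h⟩
      · have h3 : IsMultiplyPreprimitive G α 3 :=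
          isMultiplyPreprimitive_of_le G α hprim hm3 (hle _ (by omega))
        rcases reg_triply (by omega) h3 htr hreg with h | h
        · omega
        · omega

end Cfsg.Agent.H37
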