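import Mathlib
import Cfsg.Agent.H74.OrdersB3

/-!
# No simple groups of orders 1764 and 1800
-/

set_option autoImplicit false

namespace Cfsg.Agent.H37.OrdH

open Cfsg Subgroup
open Cfsg.Agent

universe u

variable {G : Type u} [Group G] [Finite G] [IsSimpleGroup G]

theorem n1764 (hG : ¬ IsMulCommutative G) : Nat.card G ≠ 1764 := by
  intro h
  have : Fact (Nat.Prime 7) := ⟨by norm_num⟩
  have h1 := H17.card_sylow_mem (p := 7) (G := G) (k := 2) (m := 36) (by rw [h]; rfl) (by norm_num)
  rw [show (Nat.divisors 36).filter (· % 7 = 1) = {1, 36} by decide +kernel] at h1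
  have h2 := H17.card_sylow_ne_one (p := 7) hG (by rw [h]; norm_num)
  have h4 : Nat.card (Sylow 7 G) = 36 := by
    simp only [Finset.mem_insert, Finset.mem_singleton] at h1
    exact h1.resolve_left h2
  obtain ⟨P, D, hDc, hDP, hPC, hNt, hN1, hN2, hN3⟩ := H17.exists_subgroup_of_sq (p := 7) (G := G) (m := 36)
    (by rw [h]; rfl) (by norm_num) (by rw [h4]; decide)
  have h5 := H17.two_mul_card_dvd_factorial hG _ hNt
  rw [h] at h5
  have h6 : 8 ≤ Nat.card (Sylow 7 (Subgroup.normalizer (D : Set G))) := by omega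
  have h7 : (Subgroup.normalizer (D : Set G)).index ≤ 4 := by
    have := Nat.le_of_dvd (by norm_num) hN3
    nlinarith
  have h8 : 0 < (Subgroup.normalizer (D : Set G)).index := Nat.pos_of_ne_zero Subgroup.FiniteIndex.index_ne_zero
  revert h5
  generalize (Subgroup.normalizer (D : Set G)).index = i at *
  interval_cases i <;> decide

theorem n1800 (hG : ¬ IsMulCommutative G) : Nat.card G ≠ 1800 := by
  intro h
  have : Fact (Nat.Prime 5) := ⟨by norm_num⟩
  have h1 := H17.card_sylow_mem (p := 5) (G := G) (k := 2) (m := 72) (by rw [h]; rfl) (by norm_num)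
  rw [show (Nat.divisors 72).filter (· % 5 = 1) = {1, 6, 36} by decide +kernel] at h1
  have h2 := H17.card_sylow_ne_one (p := 5) hG (by rw [h]; norm_num)
  have h4 : ¬ Nat.card (Sylow 5 G) ≡ 1 [MOD 5 ^ 2] := by
    simp only [Finset.mem_insert, Finset.mem_singleton] at h1
    rcases h1 with h1 | h1 | h1
    · exact absurd h1 h2
    · rw [h1]; decide
    · rw [h1]; decide
  obtain ⟨P, D, hDc, hDP, hPC, hNt, hN1, hN2, hN3⟩ := H17.exists_subgroup_of_sq (p := 5) (G := G) (m := 72)
    (by rw [h]; rfl) (by norm_num) h4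
  have h5 := H17.two_mul_card_dvd_factorial hG _ hNt
  rw [h] at h5
  have h6 : 6 ≤ Nat.card (Sylow 5 (Subgroup.normalizer (D : Set G))) := by omega
  have h7 : (Subgroup.normalizer (D : Set G)).index ≤ 12 := by
    have := Nat.le_of_dvd (by norm_num) hN3
    nlinarith
  have h8 : 0 < (Subgroup.normalizer (D : Set G)).index := Nat.pos_of_ne_zero Subgroup.FiniteIndex.index_ne_zero
  have h9 : (Subgroup.normalizer (D : Set G)).index ∣ 72 := Dvd.dvd.trans (dvd_mul_left _ _) hN3
  have h10 : (Subgroup.normalizer (D : Set G)).index = 12 := by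
    revert h5 h9
    generalize (Subgroup.normalizer (D : Set G)).index = i at *
    interval_cases i <;> decide
  have h11 := Subgroup.index_mul_card (Subgroup.normalizer (D : Set G))
  rw [h10, h] at h11
  have h12 := H74.SvB.one_of_two_mul (G := Subgroup.normalizer (D : Set G)) (m := 75) (Or.inl rfl) (by omega)
  omega

end Cfsg.Agent.H37.OrdH
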