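import Mathlib
import Cfsg.Agent.H37.OrdC
import Cfsg.Agent.H37.OrdG

/-!
# No simple group of order 1512
-/

set_option autoImplicit false

namespace Cfsg.Agent.H37.OrdJ

open Cfsg Subgroup Cfsg.Agent.BR Cfsg.Agent.BT Cfsg.Agent.H37.Ord
open Cfsg.Agent.CharBase (oneIrr)

universe u

section

variable {G : Type u} [Group G] [Finite G] {p : ℕ} [hp : Fact p.Prime] {P : Subgroup G}

/-- a cyclic complement in the normalizer. -/
theorem exists_cyc (st : Ex p P) : ∃ E : Subgroup G, E ≤ normalizer (P : Set G) ∧ Nat.card E = ind P ∧ IsCyclic E := by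
  classical
  have hPn : (P.subgroupOf (normalizer (P : Set G))).Normal := Subgroup.normal_in_normalizer
  have hcN := BR.card_N st.hP st.hC
  have hcard : Nat.card (P.subgroupOf (normalizer (P : Set G))) = p := by
    rw [Nat.card_congr (Subgroup.subgroupOfEquivOfLe
      (Subgroup.le_normalizer (H := P))).toEquiv, st.hP.card]
  have hidx : (P.subgroupOf (normalizer (P : Set G))).index = ind P := by
    have h1 := Subgroup.card_mul_index (P.subgroupOf (normalizer (P : Set G)))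
    rw [hcard, hcN] at h1
    exact Nat.eq_of_mul_eq_mul_left hp.out.pos h1
  have hele := ind_le st.hP
  have hepos := ind_pos P
  have hcop : (Nat.card (P.subgroupOf (normalizer (P : Set G)))).Coprime
      (P.subgroupOf (normalizer (P : Set G))).index := by
    rw [hcard, hidx]
    refine (hp.out.coprime_iff_not_dvd).mpr (fun h => ?_)
    have := Nat.le_of_dvd hepos h
    have := hp.out.two_le
    omega
  obtain ⟨K, hK⟩ := Subgroup.exists_right_complement'_of_coprime hcop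
  have hKc : Nat.card K = ind P := by rw [← hidx, ← hK.symm.index_eq_card]
  have hdisj : ∀ y : normalizer (P : Set G), y ∈ K → (y : G) ∈ P → (y : G) = 1 := by
    intro y hy hyP
    have h1 := hK.disjoint
    have h2 : y ∈ P.subgroupOf (normalizer (P : Set G)) ⊓ K :=
      ⟨Subgroup.mem_subgroupOf.mpr hyP, hy⟩
    rw [h1.eq_bot, Subgroup.mem_bot] at h2
    rw [h2]; rfl
  refine ⟨K.map (normalizer (P : Set G)).subtype, ?_, ?_, ?_⟩
  · rintro _ ⟨y, -, rfl⟩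
    exact y.2
  · rw [Nat.card_congr (K.equivMapOfInjective _
      (Subgroup.subtype_injective _)).symm.toEquiv, hKc]
  · let φ : normalizer (P : Set G) →* MulAut (P.subgroupOf (normalizer (P : Set G))) :=
      MulAut.conjNormal
    have hcyc' : IsCyclic (P.subgroupOf (normalizer (P : Set G))) :=
      isCyclic_of_prime_card hcard
    have hinj : Function.Injective (φ.comp K.subtype) := by
      rw [injective_iff_map_eq_one]
      rintro ⟨c, hcK⟩ hφc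
      have hφc' : φ c = 1 := hφc
      have hcC : (c : G) ∈ centralizer (P : Set G) := by
        rw [Subgroup.mem_centralizer_iff]
        intro x hx
        have h1 : φ c ⟨⟨x, Subgroup.le_normalizer hx⟩, Subgroup.mem_subgroupOf.mpr hx⟩ =
            ⟨⟨x, Subgroup.le_normalizer hx⟩, Subgroup.mem_subgroupOf.mpr hx⟩ := by
          rw [hφc']; rfl
        have h2 : (c : G) * x * (c : G)⁻¹ = x := by
          have := congrArg (fun z => ((z : normalizer (P : Set G)) : G)) (congrArg Subtype.val h1)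
          simpa [φ] using this
        calc x * c = ((c : G) * x * (c : G)⁻¹) * c := by rw [h2]
          _ = c * x := by group
      rw [st.hC] at hcC
      have h1 := hdisj c hcK hcC
      exact Subtype.ext (Subtype.ext h1)
    obtain ⟨e⟩ : Nonempty (MulAut (P.subgroupOf (normalizer (P : Set G))) ≃*
      (ZMod (Nat.card (P.subgroupOf (normalizer (P : Set G)))))ˣ) :=
      ⟨IsCyclic.mulAutMulEquiv _⟩
    have hcu : IsCyclic (ZMod (Nat.card (P.subgroupOf (normalizer (P : Set G)))))ˣ := by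
      rw [hcard]; exact ZMod.isCyclic_units_prime hp.out
    have hKcyc : IsCyclic K := by
      refine isCyclic_of_injective (e.toMonoidHom.comp (φ.comp K.subtype)) ?_
      exact e.injective.comp hinj
    exact isCyclic_of_injective
      (K.equivMapOfInjective _ (Subgroup.subtype_injective _)).symm.toMonoidHom
      (K.equivMapOfInjective _ (Subgroup.subtype_injective _)).symm.injective

end

lemma degs (f : ℕ) (hf : f ∣ 216) (h65 : f ≤ 38) (h1 : 1 < f) (δ : ℤ) (hδ : δ = 1 ∨ δ = -1) (hm : (7 : ℤ) ∣ f - δ) :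
    (δ = 1 ∧ f = 8) ∨ (δ = 1 ∧ f = 36) ∨ (δ = -1 ∧ f = 6) ∨ (δ = -1 ∧ f = 27) := by
  have h : ∀ f ∈ Nat.divisors 216, f ≤ 38 → 1 < f → (f % 7 = 1 → f = 8 ∨ f = 36) ∧
    (f % 7 = 6 → f = 6 ∨ f = 27) := by decide +kernel
  obtain ⟨h2, h3⟩ := h f (Nat.mem_divisors.mpr ⟨hf, by norm_num⟩) h65 h1
  rcases hδ with rfl | rfl
  · rcases h2 (by omega) with rfl | rfl <;> simp
  · rcases h3 (by omega) with rfl | rfl <;> simp

/-- the finite arithmetic. -/
lemma arith1512 {ι : Type*} (T : Finset ι) (δ : ι → ℤ) (f : ι → ℕ) (a : ι → ℤ) (c : ℤ) (hc0 : 0 ≤ c)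
    (hcard : T.card = 6)
    (hs : ∀ ξ ∈ T, (δ ξ = 1 ∧ f ξ = 8) ∨ (δ ξ = 1 ∧ f ξ = 36) ∨ (δ ξ = -1 ∧ f ξ = 6) ∨ (δ ξ = -1 ∧ f ξ = 27))
    (hsum : 1 + ∑ ξ ∈ T, δ ξ * (f ξ : ℤ) = 0) (hsq : 1 + ∑ ξ ∈ T, (f ξ : ℤ) ^ 2 ≤ 1512)
    (ha : ∀ ξ ∈ T, |a ξ| < f ξ ∧ (4 : ℤ) ∣ f ξ - a ξ) (hsqa : 1 + ∑ ξ ∈ T, a ξ ^ 2 ≤ c)
    (hE : (7 : ℚ) * c ^ 2 = 1512 * (1 + ∑ ξ ∈ T, (δ ξ : ℚ) * a ξ ^ 2 / f ξ)) : c = 8 := by
  classical
  let i8 : ι → ℤ := fun ξ => if f ξ = 8 then 1 else 0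
  let i36 : ι → ℤ := fun ξ => if f ξ = 36 then 1 else 0
  let i6 : ι → ℤ := fun ξ => if f ξ = 6 then 1 else 0
  let i27 : ι → ℤ := fun ξ => if f ξ = 27 then 1 else 0
  have e1 : (6 : ℤ) = ∑ ξ ∈ T, i8 ξ + ∑ ξ ∈ T, i36 ξ + ∑ ξ ∈ T, i6 ξ + ∑ ξ ∈ T, i27 ξ := by
    rw [← Finset.sum_add_distrib, ← Finset.sum_add_distrib, ← Finset.sum_add_distrib,
      show (6 : ℤ) = ∑ ξ ∈ T, 1 by rw [Finset.sum_const, hcard]; norm_num]
    refine Finset.sum_congr rfl fun ξ hξ => ?_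
    simp only [i8, i36, i6, i27]
    rcases hs ξ hξ with ⟨-, h⟩ | ⟨-, h⟩ | ⟨-, h⟩ | ⟨-, h⟩ <;> rw [h] <;> norm_num
  have e2 : ∑ ξ ∈ T, δ ξ * (f ξ : ℤ) = 8 * ∑ ξ ∈ T, i8 ξ + 36 * ∑ ξ ∈ T, i36 ξ + (-6) * ∑ ξ ∈ T, i6 ξ +
      (-27) * ∑ ξ ∈ T, i27 ξ := by
    rw [Finset.mul_sum, Finset.mul_sum, Finset.mul_sum, Finset.mul_sum, ← Finset.sum_add_distrib,
      ← Finset.sum_add_distrib, ← Finset.sum_add_distrib]
    refine Finset.sum_congr rfl fun ξ hξ => ?_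
    simp only [i8, i36, i6, i27]
    rcases hs ξ hξ with ⟨h', h⟩ | ⟨h', h⟩ | ⟨h', h⟩ | ⟨h', h⟩ <;> rw [h, h'] <;> norm_num
  have e3 : ∑ ξ ∈ T, (f ξ : ℤ) ^ 2 = 64 * ∑ ξ ∈ T, i8 ξ + 1296 * ∑ ξ ∈ T, i36 ξ + 36 * ∑ ξ ∈ T, i6 ξ +
      729 * ∑ ξ ∈ T, i27 ξ := by
    rw [Finset.mul_sum, Finset.mul_sum, Finset.mul_sum, Finset.mul_sum, ← Finset.sum_add_distrib,
      ← Finset.sum_add_distrib, ← Finset.sum_add_distrib]
    refine Finset.sum_congr rfl fun ξ hξ => ?_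
    simp only [i8, i36, i6, i27]
    rcases hs ξ hξ with ⟨h', h⟩ | ⟨h', h⟩ | ⟨h', h⟩ | ⟨h', h⟩ <;> rw [h] <;> norm_num
  have p8 : 0 ≤ ∑ ξ ∈ T, i8 ξ := Finset.sum_nonneg fun ξ _ => by simp only [i8]; split <;> norm_num
  have p36 : 0 ≤ ∑ ξ ∈ T, i36 ξ := Finset.sum_nonneg fun ξ _ => by simp only [i36]; split <;> norm_num
  have p6 : 0 ≤ ∑ ξ ∈ T, i6 ξ := Finset.sum_nonneg fun ξ _ => by simp only [i6]; split <;> norm_num
  have p27 : 0 ≤ ∑ ξ ∈ T, i27 ξ := Finset.sum_nonneg fun ξ _ => by simp only [i27]; split <;> norm_num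
  have key : ∑ ξ ∈ T, i36 ξ = 0 ∧ ∑ ξ ∈ T, i6 ξ = 1 ∧ ∑ ξ ∈ T, i27 ξ = 1 := by
    rw [e2] at hsum
    rw [e3] at hsq
    generalize ∑ ξ ∈ T, i8 ξ = x1 at *
    generalize ∑ ξ ∈ T, i36 ξ = x2 at *
    generalize ∑ ξ ∈ T, i6 ξ = x3 at *
    generalize ∑ ξ ∈ T, i27 ξ = x4 at *
    omega
  obtain ⟨k36, k6, k27⟩ := key
  have hno : ∀ ξ ∈ T, f ξ ≠ 36 := by
    intro ξ hξ h
    have h1 := (Finset.sum_eq_zero_iff_of_nonneg (fun ξ _ => by simp only [i36]; split <;> norm_num)).1 k36 ξ hξ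
    simp only [i36] at h1
    rw [if_pos h] at h1
    norm_num at h1
  let M : ι → ℤ := fun ξ => if f ξ = 8 then a ξ ^ 2 / 16 else 0
  let J : ι → ℤ := fun ξ => if f ξ = 27 then (a ξ ^ 2 - 1) / 8 else 0
  have hloc : ∀ ξ ∈ T, a ξ ^ 2 = 16 * M ξ + 4 * i6 ξ + i27 ξ + 8 * J ξ ∧ 0 ≤ M ξ ∧ 0 ≤ J ξ ∧
      (δ ξ : ℚ) * a ξ ^ 2 / f ξ = ((432 * M ξ - 144 * i6 ξ - 8 * i27 ξ - 64 * J ξ : ℤ) : ℚ) / 216 := by
    intro ξ hξ
    obtain ⟨h1, h2⟩ := ha ξ hξ
    rw [abs_lt] at h1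
    rcases hs ξ hξ with ⟨h', h⟩ | ⟨h', h⟩ | ⟨h', h⟩ | ⟨h', h⟩
    · simp only [M, J, i6, i27, h, h'] at *
      norm_num at h1 h2 ⊢
      have h3 : a ξ = -4 ∨ a ξ = 0 ∨ a ξ = 4 := by omega
      rcases h3 with h3 | h3 | h3 <;> rw [h3] <;> norm_num
    · exact absurd h (hno ξ hξ)
    · simp only [M, J, i6, i27, h, h'] at *
      norm_num at h1 h2 ⊢
      have h3 : a ξ = -2 ∨ a ξ = 2 := by omega
      rcases h3 with h3 | h3 <;> rw [h3] <;> norm_num
    · simp only [M, J, i6, i27, h, h'] at *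
      norm_num at h1 h2 ⊢
      have h3 : ∃ b : ℤ, a ξ = 2 * b + 1 := ⟨(a ξ - 1) / 2, by omega⟩
      obtain ⟨b, hb⟩ := h3
      have h4 : (2 : ℤ) ∣ b * (b + 1) := (Int.even_mul_succ_self b).two_dvd
      obtain ⟨e, he⟩ := h4
      have h5 : a ξ ^ 2 - 1 = 8 * e := by rw [hb]; linarith [he, show (2 * b + 1) ^ 2 - 1 = 4 * (b * (b + 1)) by ring]
      have h6 : (a ξ ^ 2 - 1) / 8 = e := by rw [h5]; exact Int.mul_ediv_cancel_left _ (by norm_num)
      rw [h6]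
      have h7 : 0 ≤ e := by
        have h8 : 0 ≤ b * (b + 1) := by
          rcases le_or_gt 0 b with h9 | h9
          · positivity
          · have : b + 1 ≤ 0 := by omega
            nlinarith
        omega
      refine ⟨by linarith, h7, ?_⟩
      have h8 : ((a ξ : ℚ)) ^ 2 = 1 + 8 * e := by
        have : a ξ ^ 2 = 1 + 8 * e := by linarith
        exact_mod_cast this
      rw [h8]; ring
  have hM : 0 ≤ ∑ ξ ∈ T, M ξ := Finset.sum_nonneg fun ξ hξ => (hloc ξ hξ).2.1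
  have hJ : 0 ≤ ∑ ξ ∈ T, J ξ := Finset.sum_nonneg fun ξ hξ => (hloc ξ hξ).2.2.1
  have f1 : ∑ ξ ∈ T, a ξ ^ 2 = 16 * ∑ ξ ∈ T, M ξ + 4 * ∑ ξ ∈ T, i6 ξ + ∑ ξ ∈ T, i27 ξ + 8 * ∑ ξ ∈ T, J ξ := by
    rw [Finset.mul_sum, Finset.mul_sum, Finset.mul_sum, ← Finset.sum_add_distrib,
      ← Finset.sum_add_distrib, ← Finset.sum_add_distrib]
    exact Finset.sum_congr rfl fun ξ hξ => (hloc ξ hξ).1
  have f2 : ∑ ξ ∈ T, (δ ξ : ℚ) * a ξ ^ 2 / f ξ =
      ((432 * ∑ ξ ∈ T, M ξ - 144 * ∑ ξ ∈ T, i6 ξ - 8 * ∑ ξ ∈ T, i27 ξ - 64 * ∑ ξ ∈ T, J ξ : ℤ) : ℚ) / 216 := by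
    rw [Finset.mul_sum, Finset.mul_sum, Finset.mul_sum, Finset.mul_sum, ← Finset.sum_sub_distrib,
      ← Finset.sum_sub_distrib, ← Finset.sum_sub_distrib, Int.cast_sum, Finset.sum_div]
    exact Finset.sum_congr rfl fun ξ hξ => (hloc ξ hξ).2.2.2
  rw [f2, k6, k27] at hE
  rw [f1, k6, k27] at hsqa
  generalize ∑ ξ ∈ T, M ξ = m at *
  generalize ∑ ξ ∈ T, J ξ = j at *
  have hE' : c ^ 2 = 64 + 432 * m - 64 * j := by
    have h1 : (c : ℚ) ^ 2 = 64 + 432 * m - 64 * j := by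
      push_cast at hE
      linarith
    exact_mod_cast h1
  have hm2 : m ≤ 1 := by
    by_contra hcon
    push Not at hcon
    nlinarith
  have hm3 : m = 0 ∨ m = 1 := by omega
  rcases hm3 with rfl | rfl
  · have hj : j = 0 := by
      by_contra hcon
      have : 1 ≤ j := by omega
      nlinarith
    subst hj
    nlinarith
  · have hj : j = 0 := by
      by_contra hcon
      have : 1 ≤ j := by omega
      nlinarith
    subst hj
    exfalso
    have h1 : 22 ≤ c := by linarith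
    have h2 : c ≤ 22 := by nlinarith
    have h3 : c = 22 := le_antisymm h2 h1
    rw [h3] at hE'
    norm_num at hE'

theorem n1512 {G : Type u} [Group G] [Finite G] [IsSimpleGroup G] (hG' : ¬ IsMulCommutative G) :
    Nat.card G ≠ 1512 := by
  classical
  intro hG
  haveI := Fintype.ofFinite G
  haveI : Fact (Nat.Prime 7) := ⟨by norm_num⟩
  haveI : Fact (Nat.Prime 2) := ⟨Nat.prime_two⟩
  haveI : Fact (Nat.Prime 3) := ⟨Nat.prime_three⟩
  haveI : Fintype (IrrCharacter G) := Fintype.ofFinite _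
  obtain ⟨S⟩ : Nonempty (Sylow 7 G) := inferInstance
  have hnp : ¬ (Nat.card G).Prime := by rw [hG]; norm_num
  obtain ⟨hS, hC, n, hn, h⟩ := Cfsg.Agent.H37.Ord.arith_one (G := G) 2 3 7 3 3 (by norm_num) (by norm_num) (by norm_num)
    (by norm_num) (by norm_num) (by rw [hG]; norm_num) hnp S
  have hm := h.hm
  have h1 := h.n_mod
  have h2 := h.e_two
  have h3 : Cfsg.Agent.BR.ind (S : Subgroup G) ≤ 6 := Nat.le_of_dvd (by norm_num) h.e_dvd
  have h4 := h.e_dvd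
  have he : ind (S : Subgroup G) = 6 := by
    generalize Cfsg.Agent.BR.ind (S : Subgroup G) = e at hm h1 h2 h3 h4
    rw [mul_one] at hm
    interval_cases e <;> omega
  rw [he] at hm
  have hn216 : n = 36 := by omega
  obtain ⟨B⟩ := CycG.nonempty_data hS
  let st : Ex 7 (S : Subgroup G) := ⟨hS, hC, B, by norm_num⟩
  have hperf := perfect_of_simple (noncomm hnp)
  have hcX := B.cardX
  have hcY := B.cardY
  rw [he] at hcX hcY
  have hcY' : B.Y.card = 1 := by omega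
  obtain ⟨ψ, hψ⟩ := Finset.card_eq_one.mp hcY'
  have hψY : ψ ∈ B.Y := by rw [hψ]; exact Finset.mem_singleton_self _
  have hcE : (B.X.erase (oneIrr G)).card = 5 := by
    rw [Finset.card_erase_of_mem B.one_mem, hcX]
  have hψX : ψ ∉ B.X.erase (oneIrr G) := fun h =>
    Finset.disjoint_left.mp B.disj (Finset.mem_of_mem_erase h) hψY
  have hψ1 : ψ ≠ oneIrr G := by
    rintro rfl
    exact Finset.disjoint_left.mp B.disj B.one_mem hψY
  have hone : (dg (oneIrr G) : ℤ) = 1 := by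
    have : ((dg (oneIrr G) : ℕ) : ℂ) = 1 := by rw [← dg_eq, CharBase.oneIrr_apply]
    exact_mod_cast this
  have hgt : ∀ ξ : IrrCharacter G, ξ ≠ oneIrr G → 1 < dg ξ := by
    intro ξ hξ
    have h5 := dg_pos ξ
    by_contra h6
    exact hξ (eq_one_of_perfect hperf (by omega))
  have hle : ∀ ξ : IrrCharacter G, dg ξ ≤ 38 := by
    intro ξ
    have h5 := dg_sq_le ξ
    rw [hG] at h5
    by_contra hcon
    push Not at hcon
    nlinarith
  let T : Finset (IrrCharacter G) := insert ψ (B.X.erase (oneIrr G))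
  let δ' : IrrCharacter G → ℤ := fun ξ => if ξ = ψ then B.δ₀ else B.δ ξ
  have hTcard : T.card = 6 := by
    rw [Finset.card_insert_of_notMem hψX, hcE]
  have hT1 : ∀ ξ ∈ T, ξ ≠ oneIrr G := by
    intro ξ hξ
    rcases Finset.mem_insert.mp hξ with h | h
    · rw [h]; exact hψ1
    · exact (Finset.mem_erase.mp h).1
  have hdat : ∀ ξ ∈ T, (δ' ξ = 1 ∨ δ' ξ = -1) ∧ (7 : ℤ) ∣ dg ξ - δ' ξ ∧ dg ξ ∣ 216 := by
    intro ξ hξ
    rcases Finset.mem_insert.mp hξ with h | h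
    · subst h
      simp only [δ', if_true]
      have h5 := B.congr_Y hS hψY
      have h6 := B.dvd_Y hS hψY
      rw [he, ← hn, hn216] at h6
      refine ⟨B.sgn₀, ?_, h6⟩
      rw [he] at h5
      push_cast at h5
      have : (dg ξ : ℤ) - B.δ₀ = (dg ξ + B.δ₀ * 6) - 7 * B.δ₀ := by ring
      rw [this]
      exact dvd_sub h5 (dvd_mul_right _ _)
    · have hne : ξ ≠ ψ := fun h' => hψX (h' ▸ h)
      simp only [δ', if_neg hne]
      have hξX := Finset.mem_of_mem_erase h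
      refine ⟨B.sgn ξ hξX, by exact_mod_cast B.congr_X hS hξX, ?_⟩
      have := B.dvd_X hS hξX
      rw [he, ← hn, hn216] at this
      exact this
  have hs : ∀ ξ ∈ T, (δ' ξ = 1 ∧ dg ξ = 8) ∨ (δ' ξ = 1 ∧ dg ξ = 36) ∨ (δ' ξ = -1 ∧ dg ξ = 6) ∨
      (δ' ξ = -1 ∧ dg ξ = 27) := by
    intro ξ hξ
    obtain ⟨g1, g2, g3⟩ := hdat ξ hξ
    exact degs _ g3 (hle ξ) (hgt ξ (hT1 ξ hξ)) _ g1 g2
  have hTsum : ∀ {R : Type} [AddCommMonoid R] (F : ℤ → IrrCharacter G → R),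
      ∑ ξ ∈ B.X, F (B.δ ξ) ξ + F B.δ₀ ψ = F 1 (oneIrr G) + ∑ ξ ∈ T, F (δ' ξ) ξ := by
    intro R _ F
    rw [← Finset.add_sum_erase B.X (fun ξ => F (B.δ ξ) ξ) B.one_mem, Finset.sum_insert hψX, B.δ_one hS]
    have h5 : ∑ ξ ∈ B.X.erase (oneIrr G), F (δ' ξ) ξ = ∑ ξ ∈ B.X.erase (oneIrr G), F (B.δ ξ) ξ := by
      refine Finset.sum_congr rfl fun ξ hξ => ?_
      have hne : ξ ≠ ψ := fun h' => hψX (h' ▸ hξ)
      simp only [δ', if_neg hne]
    rw [h5]
    simp only [δ', if_true]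
    rw [add_assoc, add_comm (F B.δ₀ ψ)]
  have hsum : 1 + ∑ ξ ∈ T, δ' ξ * (dg ξ : ℤ) = 0 := by
    have h5 := hTsum (fun s ξ => s * (dg ξ : ℤ))
    have h6 := B.degEq hψY
    simp only [hone, mul_one] at h5
    rw [← h5]
    exact h6
  have hT0 : oneIrr G ∉ T := fun h => hT1 _ h rfl
  have hsq : 1 + ∑ ξ ∈ T, (dg ξ : ℤ) ^ 2 ≤ 1512 := by
    have h5 := sum_sq_le (1 : G) (insert (oneIrr G) T) (fun ξ => (dg ξ : ℤ)) (fun ξ _ => by
      rw [dg_eq]; push_cast; rfl)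
    rw [Finset.sum_insert hT0, hone] at h5
    have h6 : Nat.card (centralizer ({(1 : G)} : Set G)) ≤ 1512 := by
      rw [← hG]
      exact Nat.card_le_card_of_injective _ Subtype.val_injective
    have h7 : (Nat.card (centralizer ({(1 : G)} : Set G)) : ℤ) ≤ 1512 := by exact_mod_cast h6
    linarith
  -- the group theory
  obtain ⟨E, hEN, hEc, hEcyc⟩ := exists_cyc st
  rw [he] at hEc
  obtain ⟨t', ht'2⟩ := exists_prime_orderOf_dvd_card' (G := E) 2 (by rw [hEc]; norm_num)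
  obtain ⟨w', hw'3⟩ := exists_prime_orderOf_dvd_card' (G := E) 3 (by rw [hEc]; norm_num)
  have htw : (t' : G) * w' = w' * t' := by
    have := hEcyc.commutative.is_comm.comm t' w'
    exact congrArg Subtype.val this
  obtain ⟨t, ht⟩ : ∃ t : G, t = (t' : G) := ⟨_, rfl⟩
  obtain ⟨w, hw⟩ : ∃ w : G, w = (w' : G) := ⟨_, rfl⟩
  have hz2 : orderOf t = 2 := by rw [ht, Subgroup.orderOf_coe]; exact ht'2
  have hw3 : orderOf w = 3 := by rw [hw, Subgroup.orderOf_coe]; exact hw'3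
  rw [← ht, ← hw] at htw
  have htE : t ∈ E := by rw [ht]; exact t'.2
  have hzz : t * t = 1 := by rw [← pow_two, ← hz2]; exact pow_orderOf_eq_one t
  have hz1 : t ≠ 1 := by
    rintro h
    rw [h, orderOf_one] at hz2
    omega
  have htP : t ∉ (S : Subgroup G) := by
    intro h
    have h5 : orderOf (⟨t, h⟩ : (S : Subgroup G)) ∣ Nat.card (S : Subgroup G) := orderOf_dvd_natCard _
    rw [Subgroup.orderOf_mk, hz2, hS.card] at h5
    norm_num at h5
  have hyex : ∃ y ∈ (S : Subgroup G), t * y ≠ y * t := by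
    by_contra hcon
    push Not at hcon
    apply htP
    rw [← hC, Subgroup.mem_centralizer_iff]
    intro y hy
    exact (hcon y hy).symm
  obtain ⟨y, hy, hty⟩ := hyex
  have htinv : t⁻¹ = t := inv_eq_of_mul_eq_one_right hzz
  obtain ⟨x, hxdef⟩ : ∃ x, x = t * (y * t * y⁻¹) := ⟨_, rfl⟩
  have hx : x ∈ (S : Subgroup G) := by
    have h5 : t * y * t⁻¹ ∈ (S : Subgroup G) := (Subgroup.mem_normalizer_iff.mp (hEN htE) y).mp hy
    have h6 : x = (t * y * t⁻¹) * y⁻¹ := by rw [hxdef, htinv]; group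
    rw [h6]
    exact mul_mem h5 (inv_mem hy)
  have hx1 : x ≠ 1 := by
    intro h
    apply hty
    have h6 : x = (t * y * t⁻¹) * y⁻¹ := by rw [hxdef, htinv]; group
    rw [h6, mul_inv_eq_one] at h
    exact mul_inv_eq_iff_eq_mul.mp h
  have hval : ∀ ξ : IrrCharacter G, ξ ≠ oneIrr G → ∃ a : ℤ, (ξ : G → ℂ) t = a ∧ |a| < dg ξ ∧ (4 : ℤ) ∣ dg ξ - a := by
    intro ξ hξ
    obtain ⟨a, ha⟩ := H4.exists_int_value (CharBase.irr_isCharacter ξ) hzz
    obtain ⟨k, hk⟩ := involution_value hperf ξ (z := t) (by rw [pow_two, hzz])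
    refine ⟨a, ha, ?_, ⟨k, ?_⟩⟩
    · obtain ⟨n, h1, h2⟩ := CharBase.norm_le_of_isCharacter (CharBase.irr_isCharacter ξ) t
      have h3 : (n : ℂ) = dg ξ := by rw [← h1, dg_eq]
      have h4 : n = dg ξ := by exact_mod_cast h3
      rw [h4] at h2
      have hfaith : ∀ g : G, (ξ : G → ℂ) g = (ξ : G → ℂ) 1 → g = 1 := by
        intro g hg
        by_contra hne
        exact hξ (eq_one_of_ker ξ hne hg)
      have hne : ‖(ξ : G → ℂ) t‖ ≠ (dg ξ : ℝ) := by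
        intro heq
        have hzc := H79.mem_center_of_norm_eq ξ hfaith heq
        have hcen : Subgroup.center G = ⊥ := by
          rcases IsSimpleGroup.eq_bot_or_eq_top_of_normal (Subgroup.center G) inferInstance with h | h
          · exact h
          · exfalso
            apply noncomm hnp
            exact ⟨⟨fun a b => (Subgroup.mem_center_iff.mp (h ▸ Subgroup.mem_top b : b ∈ Subgroup.center G) a)⟩⟩
        rw [hcen, Subgroup.mem_bot] at hzc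
        exact hz1 hzc
      have hlt := lt_of_le_of_ne h2 hne
      rw [ha, Complex.norm_intCast] at hlt
      exact_mod_cast hlt
    · rw [ha] at hk
      have h5 : (a : ℤ) = dg ξ - 4 * k := by exact_mod_cast hk
      rw [h5]; ring
  choose! a ha1 ha2 ha3 using hval
  let a' : IrrCharacter G → ℤ := fun ξ => if ξ = oneIrr G then 1 else a ξ
  have hsqa : 1 + ∑ ξ ∈ T, a ξ ^ 2 ≤ (Nat.card (centralizer ({t} : Set G)) : ℤ) := by
    have h5 := sum_sq_le t (insert (oneIrr G) T) a' (fun ξ _ => by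
      by_cases h : ξ = oneIrr G
      · simp only [a', if_pos h]
        rw [h, CharBase.oneIrr_apply]; norm_num
      · simp only [a', if_neg h]
        exact ha1 ξ h)
    rw [Finset.sum_insert hT0] at h5
    have h6 : ∑ ξ ∈ T, a' ξ ^ 2 = ∑ ξ ∈ T, a ξ ^ 2 := by
      refine Finset.sum_congr rfl fun ξ hξ => ?_
      simp only [a', if_neg (hT1 ξ hξ)]
    rw [h6] at h5
    simpa [a'] using h5
  have h5z : ¬ 7 ∣ orderOf t := by rw [hz2]; norm_num
  have hcp := st.card_pairs h5z h5z hx hx1 hψY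
  have hco := ex_count_or st hzz hx hx1
  change (_ : ℂ) = (Nat.card G : ℂ) * (∑ χ ∈ B.X, (B.δ χ : ℂ) * (χ : G → ℂ) t * (χ : G → ℂ) t /
      (dg χ : ℂ) + B.δ₀ * (ψ : G → ℂ) t * (ψ : G → ℂ) t / (dg ψ : ℂ)) at hcp
  have hTs := hTsum (fun s ξ => ((s : ℂ) * (ξ : G → ℂ) t * (ξ : G → ℂ) t / (dg ξ : ℂ)))
  rw [hTs, CharBase.oneIrr_apply, show ((dg (oneIrr G) : ℕ) : ℂ) = 1 by exact_mod_cast hone, hG] at hcp
  have hsumc : ∑ ξ ∈ T, ((δ' ξ : ℂ) * (ξ : G → ℂ) t * (ξ : G → ℂ) t / (dg ξ : ℂ)) =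
      ((∑ ξ ∈ T, (δ' ξ : ℚ) * a ξ ^ 2 / dg ξ : ℚ) : ℂ) := by
    rw [Rat.cast_sum]
    refine Finset.sum_congr rfl fun ξ hξ => ?_
    rw [ha1 ξ (hT1 ξ hξ)]
    push_cast
    ring
  rw [hsumc] at hcp
  have hN0 : ((Finset.univ : Finset (G × G)).filter
        (fun q => q.1 * t * q.1⁻¹ * (q.2 * t * q.2⁻¹) = x)).card ≠ 0 := by
    apply Finset.card_ne_zero_of_mem (a := ((1 : G), y))
    rw [Finset.mem_filter]
    refine ⟨Finset.mem_univ _, ?_⟩
    rw [hxdef]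
    simp
  have hN := hco.resolve_left hN0
  rw [hN] at hcp
  have hcE : (7 : ℚ) * ((Nat.card (centralizer ({t} : Set G)) : ℤ) : ℚ) ^ 2 =
      1512 * (1 + ∑ ξ ∈ T, (δ' ξ : ℚ) * a ξ ^ 2 / dg ξ) := by
    have h6 : (((7 : ℚ) * ((Nat.card (centralizer ({t} : Set G)) : ℤ) : ℚ) ^ 2 : ℚ) : ℂ) =
        ((1512 * (1 + ∑ ξ ∈ T, (δ' ξ : ℚ) * a ξ ^ 2 / dg ξ) : ℚ) : ℂ) := by
      push_cast at hcp ⊢
      rw [hcp]
      ring
    exact_mod_cast h6
  have hc8 := arith1512 T δ' (fun ξ => dg ξ) a (Nat.card (centralizer ({t} : Set G)) : ℤ) (by positivity)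
    hTcard hs hsum hsq (fun ξ hξ => ⟨ha2 ξ (hT1 ξ hξ), ha3 ξ (hT1 ξ hξ)⟩) hsqa hcE
  have hwC : w ∈ centralizer ({t} : Set G) := by
    rw [Subgroup.mem_centralizer_singleton_iff]
    first | exact htw | exact htw.symm
  have h9 : orderOf (⟨w, hwC⟩ : centralizer ({t} : Set G)) ∣ Nat.card (centralizer ({t} : Set G)) :=
    orderOf_dvd_natCard _
  rw [Subgroup.orderOf_mk, hw3] at h9
  omega

end Cfsg.Agent.H37.OrdJ
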