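import Mathlib

/-!
Automorphisms of a 2-transitive group of prime degree that fix a transitive abelian element commute.
-/

set_option autoImplicit false

namespace Cfsg.Agent.H37.PDeg

open MulAction

section Circ

variable {G : Type*} [Group G] {X : Type*} [Fintype X] [MulAction G X]

/-- Matrices commuting with a transitive cyclic group commute with each other. -/
lemma circ_comm (Z : Subgroup G) (hZc : ∀ x ∈ Z, ∀ y ∈ Z, x * y = y * x)
    (hZt : ∀ w v : X, ∃ z ∈ Z, z • w = v) (M N : X → X → ℚ)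
    (hM : ∀ z ∈ Z, ∀ w v, M (z • w) (z • v) = M w v) (hN : ∀ z ∈ Z, ∀ w v, N (z • w) (z • v) = N w v)
    (w v : X) : ∑ u, M w u * N u v = ∑ u, N w u * M u v := by
  classical
  have hfix : ∀ z ∈ Z, ∀ u : X, z • u = u → ∀ t : X, z • t = t := by
    intro z hz u hu t
    obtain ⟨y, hy, rfl⟩ := hZt u t
    rw [← mul_smul, hZc z hz y hy, mul_smul, hu]
  choose f hf hfw using fun u : X => hZt w u
  let φ : X → X := fun u => (f u)⁻¹ • v
  have hinj : Function.Injective φ := by
    intro u u' h
    have h1 : (f u' * (f u)⁻¹) • v = v := by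
      rw [mul_smul]; change f u' • φ u = v; rw [h]; simp [φ]
    have h2 := hfix _ (Z.mul_mem (hf u') (Z.inv_mem (hf u))) v h1 u
    have h3 : f u' • w = u := by
      have : (f u)⁻¹ • u = w := by rw [inv_smul_eq_iff, hfw]
      rw [mul_smul, this] at h2
      exact h2
    rw [← h3, hfw]
  have hbij : Function.Bijective φ := Finite.injective_iff_bijective.mp hinj
  rw [← Function.Bijective.sum_comp hbij (fun u => N w u * M u v)]
  refine Finset.sum_congr rfl fun u _ => ?_
  have e1 : N u v = N w (φ u) := by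
    have := hN (f u) (hf u) w (φ u)
    rw [hfw] at this
    simp only [φ, smul_inv_smul] at this
    rw [this]
  have e2 : M w u = M (φ u) v := by
    obtain ⟨y, hy, hyw⟩ := hZt w (φ u)
    have := hM y hy w u
    rw [hyw] at this
    rw [← this]
    congr 1
    have h4 : y • u = f u • (y • w) := by
      rw [← mul_smul, ← hZc y hy (f u) (hf u), mul_smul, hfw]
    rw [h4, hyw]
    simp [φ]
  rw [e1, e2]
  ring

end Circ

section Main

variable {G : Type*} [Group G] {X : Type*} [Fintype X] [DecidableEq X] [MulAction G X]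

omit [Fintype X] in
/-- a matrix invariant under a 2-transitive group -/
lemma inv_two (h2 : ∀ a b c d : X, a ≠ b → c ≠ d → ∃ g : G, g • a = c ∧ g • b = d)
    (h1 : ∀ a b : X, ∃ g : G, g • a = b) (M : X → X → ℚ) (hM : ∀ g : G, ∀ w v, M (g • w) (g • v) = M w v) :
    ∃ c d : ℚ, ∀ w v, M w v = d + (if w = v then c else 0) := by
  classical
  by_cases hX : ∃ a b : X, a ≠ b
  · obtain ⟨a, b, hab⟩ := hX
    refine ⟨M a a - M a b, M a b, fun w v => ?_⟩
    by_cases hwv : w = v
    · subst hwv
      obtain ⟨g, hg⟩ := h1 a w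
      rw [if_pos rfl, ← hg, hM]; ring
    · obtain ⟨g, hg, hg'⟩ := h2 a b w v hab hwv
      rw [if_neg hwv, ← hg, ← hg', hM]; ring
  · push Not at hX
    by_cases hne : Nonempty X
    · obtain ⟨a⟩ := hne
      refine ⟨M a a, 0, fun w v => ?_⟩
      rw [hX w a, hX v a]; simp
    · exact ⟨0, 0, fun w v => absurd ⟨w⟩ hne⟩

/-- the relation `{(α g a, g a)}` -/
def R (a : X) (α : MulAut G) (w v : X) : Prop := ∃ g : G, w = α g • a ∧ v = g • a

omit [Fintype X] [DecidableEq X] in
lemma R_smul (a : X) (α : MulAut G) (g : G) (w v : X) : R a α (α g • w) (g • v) ↔ R a α w v := by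
  constructor
  · rintro ⟨k, h1, h2⟩
    refine ⟨g⁻¹ * k, ?_, ?_⟩
    · rw [map_mul, map_inv, mul_smul, ← h1, inv_smul_smul]
    · rw [mul_smul, ← h2, inv_smul_smul]
  · rintro ⟨k, rfl, rfl⟩
    exact ⟨g * k, by rw [map_mul, mul_smul], by rw [mul_smul]⟩

open Classical in
/-- the incidence matrix -/
noncomputable def B (a : X) (α : MulAut G) (w v : X) : ℚ := if R a α w v then 1 else 0

omit [Fintype X] [DecidableEq X] in
lemma B_smul (a : X) (α : MulAut G) (g : G) (w v : X) : B a α (α g • w) (g • v) = B a α w v := by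
  unfold B
  by_cases h : R a α w v
  · rw [if_pos h, if_pos ((R_smul a α g w v).mpr h)]
  · rw [if_neg h, if_neg (fun h' => h ((R_smul a α g w v).mp h'))]

/-- rows of `B` -/
lemma BBt (h2 : ∀ a b c d : X, a ≠ b → c ≠ d → ∃ g : G, g • a = c ∧ g • b = d)
    (h1 : ∀ a b : X, ∃ g : G, g • a = b) (a : X) (α : MulAut G)
    (hns : ¬ ∀ w : X, ∃ g : G, g • a = a ∧ w = α g • a) :
    ∃ c d : ℚ, c ≠ 0 ∧ ∀ w w', ∑ v, B a α w v * B a α w' v = d + (if w = w' then c else 0) := by
  classical
  obtain ⟨c, d, hcd⟩ := inv_two (G := G) h2 h1 (fun w w' => ∑ v, B a α w v * B a α w' v) (by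
    intro g w w'
    have hb : Function.Bijective (fun v : X => (α.symm g) • v) := MulAction.bijective _
    change ∑ v, B a α (g • w) v * B a α (g • w') v = ∑ v, B a α w v * B a α w' v
    rw [← Function.Bijective.sum_comp hb]
    refine Finset.sum_congr rfl fun v _ => ?_
    have e : g = α (α.symm g) := (MulEquiv.apply_symm_apply α g).symm
    conv_lhs => rw [e]
    simp only [MulEquiv.symm_apply_apply]
    rw [B_smul, B_smul])
  refine ⟨c, d, ?_, hcd⟩
  intro hc
  subst hc
  apply hns
  have hrow : ∀ w w' v, B a α w v = B a α w' v := by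
    intro w w'
    have e : ∑ v, (B a α w v - B a α w' v) ^ 2 = 0 := by
      have : ∑ v, (B a α w v - B a α w' v) ^ 2 = ∑ v, B a α w v * B a α w v - ∑ v, B a α w v * B a α w' v
          - ∑ v, B a α w' v * B a α w v + ∑ v, B a α w' v * B a α w' v := by
        rw [← Finset.sum_sub_distrib, ← Finset.sum_sub_distrib, ← Finset.sum_add_distrib]
        refine Finset.sum_congr rfl fun v _ => ?_
        ring
      rw [this]
      have hcd2 : ∀ w w', ∑ v, B a α w v * B a α w' v = d + (if w = w' then (0:ℚ) else 0) := hcd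
      rw [hcd2, hcd2, hcd2, hcd2]; simp
    intro v
    have h0 := (Finset.sum_eq_zero_iff_of_nonneg (fun i _ => sq_nonneg _)).mp e v (Finset.mem_univ _)
    have := pow_eq_zero_iff (two_ne_zero) |>.mp h0
    linarith
  intro w
  have haa : B a α a a = 1 := by
    unfold B
    rw [if_pos ⟨1, by simp, by simp⟩]
  have hwa : B a α w a = 1 := by rw [hrow w a, haa]
  unfold B at hwa
  by_cases hR : R a α w a
  · obtain ⟨g, h3, h4⟩ := hR
    exact ⟨g, h4.symm, h3⟩
  · rw [if_neg hR] at hwa; norm_num at hwa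

/-- **Main lemma.** -/
theorem comm_of_fix [FaithfulSMul G X]
    (h2 : ∀ a b c d : X, a ≠ b → c ≠ d → ∃ g : G, g • a = c ∧ g • b = d)
    (h1 : ∀ a b : X, ∃ g : G, g • a = b) (a : X)
    (hns : ∀ α : MulAut G, ¬ ∀ w : X, ∃ g : G, g • a = a ∧ w = α g • a)
    (Z : Subgroup G) (hZc : ∀ x ∈ Z, ∀ y ∈ Z, x * y = y * x)
    (hZt : ∀ w v : X, ∃ z ∈ Z, z • w = v) (α β : MulAut G) (hα : ∀ z ∈ Z, α z = z) (hβ : ∀ z ∈ Z, β z = z) :
    α * β = β * α := by
  classical
  have hA : ∀ z ∈ Z, ∀ w v, B a α (z • w) (z • v) = B a α w v := by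
    intro z hz w v
    conv_lhs => rw [← hα z hz]
    conv_lhs => enter [4]; rw [hα z hz]
    exact B_smul a α z w v
  have hB : ∀ z ∈ Z, ∀ w v, B a β (z • w) (z • v) = B a β w v := by
    intro z hz w v
    conv_lhs => rw [← hβ z hz]
    conv_lhs => enter [4]; rw [hβ z hz]
    exact B_smul a β z w v
  have hcomm := circ_comm Z hZc hZt (B a α) (B a β) hA hB
  let M : X → X → ℚ := fun w v => ∑ u, B a α w u * B a β u v
  have hM1 : ∀ (g : G) (w v : X), M (α (β g) • w) (g • v) = M w v := by
    intro g w v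
    simp only [M]
    rw [← Function.Bijective.sum_comp (MulAction.bijective (β g))]
    refine Finset.sum_congr rfl fun u _ => ?_
    rw [B_smul, B_smul]
  have hM2 : ∀ (g : G) (w v : X), M (β (α g) • w) (g • v) = M w v := by
    intro g w v
    simp only [M]
    rw [hcomm, hcomm, ← Function.Bijective.sum_comp (MulAction.bijective (α g))]
    refine Finset.sum_congr rfl fun u _ => ?_
    rw [B_smul, B_smul]
  ext g
  rw [MulAut.mul_apply, MulAut.mul_apply]
  -- u := (αβ g) (βα g)⁻¹
  have hu : ∀ w v : X, M ((α (β g) * (β (α g))⁻¹) • w) v = M w v := by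
    intro w v
    have e1 := hM1 g ((β (α g))⁻¹ • w) (g⁻¹ • v)
    have e2 := hM2 g ((β (α g))⁻¹ • w) (g⁻¹ • v)
    rw [smul_inv_smul] at e1 e2
    rw [smul_inv_smul] at e2
    rw [mul_smul, e1, ← e2]
  set u := α (β g) * (β (α g))⁻¹ with hudef
  obtain ⟨c, d, hc, hcd⟩ := BBt h2 h1 a β (hns β)
  obtain ⟨c', d', hc', hcd'⟩ := BBt h2 h1 a α (hns α)
  -- row sums of B a α are constant
  have hrs : ∀ w w' : X, ∑ v, B a α w v = ∑ v, B a α w' v := by
    intro w w'
    obtain ⟨k, rfl⟩ := h1 w w'
    rw [← Function.Bijective.sum_comp (MulAction.bijective (α.symm k)) (fun v => B a α (k • w) v)]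
    refine Finset.sum_congr rfl fun v _ => ?_
    have e : k = α (α.symm k) := (MulEquiv.apply_symm_apply α k).symm
    conv_rhs => rw [e]
    simp only [MulEquiv.symm_apply_apply]
    rw [B_smul]
  have hMB : ∀ w t : X, ∑ v, M w v * B a β t v = c * B a α w t + d * ∑ v, B a α w v := by
    intro w t
    simp only [M, Finset.sum_mul]
    rw [Finset.sum_comm]
    have : ∀ y ∈ (Finset.univ : Finset X), ∑ x, B a α w y * B a β y x * B a β t x =
        B a α w y * (d + (if y = t then c else 0)) := by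
      intro y _
      rw [← hcd, Finset.mul_sum]
      refine Finset.sum_congr rfl fun x _ => by ring
    rw [Finset.sum_congr rfl this]
    simp only [mul_add, Finset.sum_add_distrib, mul_ite, mul_zero, Finset.sum_ite_eq', Finset.mem_univ, if_true]
    rw [← Finset.sum_mul]
    ring
  have hrow : ∀ w t : X, B a α (u • w) t = B a α w t := by
    intro w t
    have e1 := hMB (u • w) t
    have e2 := hMB w t
    have e3 : ∑ v, M (u • w) v * B a β t v = ∑ v, M w v * B a β t v :=
      Finset.sum_congr rfl fun v _ => by rw [hu]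
    rw [e1, e2, hrs (u • w) w] at e3
    have : c * B a α (u • w) t = c * B a α w t := by linarith
    exact mul_left_cancel₀ hc this
  have hfix : ∀ w : X, u • w = w := by
    intro w
    by_contra hne
    have e1 := hcd' (u • w) w
    have e2 := hcd' w w
    rw [if_neg hne] at e1
    rw [if_pos rfl] at e2
    have e3 : ∑ v, B a α (u • w) v * B a α w v = ∑ v, B a α w v * B a α w v :=
      Finset.sum_congr rfl fun v _ => by rw [hrow]
    rw [e1, e2] at e3
    apply hc'
    linarith
  have hu1 : u = 1 := by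
    apply FaithfulSMul.eq_of_smul_eq_smul (α := X)
    intro w
    rw [hfix, one_smul]
  rw [hudef, mul_inv_eq_one] at hu1
  exact hu1

end Main

end Cfsg.Agent.H37.PDeg
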